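import Cfsg.Agent.Lib.Block.CycBridge

/-!
# Perfect isometries between blocks with cyclic defect groups
-/

set_option autoImplicit false
set_option linter.unusedSectionVars false

namespace BT

open Cfsg CT GT
open scoped MonoidAlgebra ComplexConjugate Pointwise

variable {p : ℕ} [Fact p.Prime] {M : Ideal AlgInt} {hM : IsPModular p M}
variable {G : Type*} [Group G] [Finite G] {H : Type*} [Group H] [Finite H]

variable (hM) in
theorem sum_div_card_centralizer_mem {J : Type*} (s : Finset J) (α : J → IrrCharacter G)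
    {a : J → ℂ} (ha : ∀ j ∈ s, a j ∈ locRing hM)
    (h0 : ∀ x, p ∣ orderOf x → ∑ j ∈ s, a j * (α j).1 x = 0) (x : G) :
    (∑ j ∈ s, a j * (α j).1 x) / (Nat.card (Subgroup.centralizer ({x} : Set G)) : ℂ) ∈
      locRing hM := by
  classical
  have := div_card_centralizer_mem_locRing' hM (θ := ∑ j ∈ s, a j • (α j).1)
    (isClassFunction_sum _ _ fun j _ => (irr_isClassFunction _).smul _) (fun χ => ?_)
    (fun g hg => by simpa using h0 g hg) x
  · simpa using this
  · rw [ip_sum_left]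
    refine sum_mem fun j hj => ?_
    rw [ip_smul_left, ip_irr]
    split_ifs
    · simpa using ha j hj
    · simp

variable (hM) in
/-- A separated kernel is perfect as soon as it is so on pairs of singular elements. -/
theorem isPerfectFun_kernel (b : Set (IrrCharacter H)) (I : IrrCharacter H → IrrCharacter G)
    (ε : IrrCharacter H → ℤ)
    (h1 : ∀ x y, p ∣ orderOf x → ¬ p ∣ orderOf y → signedBijectionKernel b I ε x y = 0)
    (h2 : ∀ x y, ¬ p ∣ orderOf x → p ∣ orderOf y → signedBijectionKernel b I ε x y = 0)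
    (h3 : ∀ x y, p ∣ orderOf x → p ∣ orderOf y → signedBijectionKernel b I ε x y /
      (Nat.card (Subgroup.centralizer ({x} : Set G)) : ℂ) ∈ locRing hM ∧
      signedBijectionKernel b I ε x y /
        (Nat.card (Subgroup.centralizer ({y} : Set H)) : ℂ) ∈ locRing hM) :
    IsPerfectFun p M (signedBijectionKernel b I ε) := by
  intro x y
  have e1 : ∀ x y, signedBijectionKernel b I ε x y = ∑ η ∈ bset b, (ε η * η.1 y) * (I η).1 x :=
    fun x y => by
      rw [signedBijectionKernel, finsum_mem_eq_sum_bset]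
      exact Finset.sum_congr rfl fun _ _ => mul_right_comm _ _ _
  have e2 : ∀ x y, signedBijectionKernel b I ε x y = ∑ η ∈ bset b, (ε η * (I η).1 x) * η.1 y :=
    fun x y => finsum_mem_eq_sum_bset _ _
  by_cases hx : p ∣ orderOf x <;> by_cases hy : p ∣ orderOf y
  · exact ⟨(h3 x y hx hy).1, (h3 x y hx hy).2, Or.inl (iff_of_false (not_not.2 hx) (not_not.2 hy))⟩
  · rw [h1 x y hx hy, zero_div, zero_div]
    exact ⟨(locRing hM).zero_mem, (locRing hM).zero_mem, Or.inr rfl⟩
  · rw [h2 x y hx hy, zero_div, zero_div]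
    exact ⟨(locRing hM).zero_mem, (locRing hM).zero_mem, Or.inr rfl⟩
  · refine ⟨?_, ?_, Or.inl (iff_of_true hx hy)⟩
    · rw [e1]
      exact sum_div_card_centralizer_mem hM _ I (fun η _ => mul_mem (intCast_mem _ _)
        (mem_locRing_of_isIntegral hM (isIntegral_character_value (irr_isCharacter _) _)))
        (fun x hx => by rw [← e1, h1 x y hx hy]) x
    · rw [e2]
      exact sum_div_card_centralizer_mem hM _ id (fun η _ => mul_mem (intCast_mem _ _)
        (mem_locRing_of_isIntegral hM (isIntegral_character_value (irr_isCharacter _) _)))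
        (fun y hy => (e2 x y).symm.trans (h2 x y hx hy)) y

variable {A : Type*} [CommGroup A] [Finite A] [IsCyclic A]

theorem CycStr.exists_perfectIsometry {B : Set (IrrCharacter G)} {ι : A →* G} {e : (ResF hM)[G]}
    {X : Set (IrrCharacter G)} {Y : HatNe A → IrrCharacter G} {δ : IrrCharacter G → ℤ} {δ₀ : ℤ}
    {c : ℕ → ℝ} (T : CycStr hM B ι e X Y δ δ₀ c) (S : AbSet hM B ι e)
    {b : Set (IrrCharacter H)} {κ : A →* H} {f : (ResF hM)[H]}
    {X' : Set (IrrCharacter H)} {Y' : HatNe A → IrrCharacter H} {δ' : IrrCharacter H → ℤ}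
    {δ₀' : ℤ} {c' : ℕ → ℝ} (T' : CycStr hM b κ f X' Y' δ' δ₀' c') (S' : AbSet hM b κ f)
    (hE : inert κ f = inert ι e) : ∃ I ε, IsPerfectIsometry p M b B I ε := by
  classical
  obtain ⟨β⟩ : Nonempty (X' ≃ X) := Finite.card_eq.1 (by rw [T.card_X, T'.card_X, hE])
  obtain ⟨I, hIX, hIY⟩ : ∃ I : IrrCharacter H → IrrCharacter G,
      (∀ η : X', I η = β η) ∧ ∀ l, I (Y' l) = Y (HatNe.inv l) := by
    refine ⟨fun η => if h : η ∈ X' then β ⟨η, h⟩ else if h : ∃ l, Y' l = η then
      Y (HatNe.inv h.choose) else irrOne G, fun η => dif_pos η.2, fun l => ?_⟩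
    have h : ∃ m, Y' m = Y' l := ⟨l, rfl⟩
    obtain ⟨σ, hσ, h'⟩ := (T'.eq_iff _ _).1 h.choose_spec
    simp only [dif_neg (T'.not_mem l), dif_pos h]
    exact (T.eq_iff _ _).2 ⟨σ, hE ▸ hσ, by rw [HatNe.smul_inv, h']⟩
  have hIm : ∀ η ∈ X', I η ∈ X := fun η h => by rw [hIX ⟨η, h⟩]; exact (β _).2
  have hsX : ∀ F : IrrCharacter G → ℂ, ∑ η ∈ bset X', F (I η) = ∑ χ ∈ bset X, F χ := fun F => by
    have := Fintype.ofFinite X
    have := Fintype.ofFinite X'
    rw [Finset.sum_subtype (bset X') fun _ => mem_bset, Finset.sum_subtype (bset X)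
      fun _ => mem_bset, ← β.sum_comp]
    exact Finset.sum_congr rfl fun η _ => by rw [hIX]
  let ε : IrrCharacter H → ℤ := fun η => if η ∈ X' then δ (I η) * δ' η else δ₀ * δ₀'
  obtain ⟨n, hn⟩ : ∃ n, Nat.card (inert ι e) = n := ⟨_, rfl⟩
  have hn' : Nat.card (inert κ f) = n := by rw [hE, hn]
  have hn0 : (n : ℂ) ≠ 0 := hn ▸ card_cast_ne_zero
  have hμ : ∀ x y, n * signedBijectionKernel b I ε x y =
      n * ∑ η ∈ bset X', δ (I η) * (I η).1 x * (δ' η * η.1 y) +
        ∑ l, δ₀ * (Y (HatNe.inv l)).1 x * (δ₀' * (Y' l).1 y) := fun x y => by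
    rw [signedBijectionKernel, finsum_mem_eq_sum_bset, T'.sum_bset, mul_add,
      ← nsmul_eq_mul n (∑ η ∈ bset (Set.range Y'), _), ← hn', ← T'.sum_comp S', hn']
    congr 1
    · refine congrArg _ (Finset.sum_congr rfl fun η hη => ?_)
      simp only [ε, if_pos (mem_bset.1 hη)]
      push_cast
      ring
    · refine Finset.sum_congr rfl fun l _ => ?_
      simp only [ε, if_neg (T'.not_mem l), hIY]
      push_cast
      ring
  refine ⟨I, ε, ⟨fun η hη => ?_, fun η hη η' hη' h => ?_, fun χ hχ => ?_⟩, fun η hη => ?_,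
    isPerfectFun_kernel hM b I ε (fun x y hx hy => mul_left_cancel₀ hn0 ?_)
      (fun x y hx hy => mul_left_cancel₀ hn0 ?_) fun x y hx hy => ?_⟩
  · rcases (T'.mem_iff η).1 hη with h | ⟨l, rfl⟩
    · exact T.subset (hIm η h)
    · rw [hIY]; exact T.mem _
  · rcases (T'.mem_iff η).1 hη with h1 | ⟨l, rfl⟩ <;>
      rcases (T'.mem_iff η').1 hη' with h2 | ⟨m, rfl⟩
    · rw [hIX ⟨η, h1⟩, hIX ⟨η', h2⟩] at h
      exact congrArg Subtype.val (β.injective (Subtype.ext h))
    · exact absurd (hIY m ▸ h ▸ hIm η h1) (T.not_mem _)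
    · exact absurd (hIY l ▸ h ▸ hIm η' h2) (T.not_mem _)
    · rw [hIY, hIY, T.eq_iff] at h
      obtain ⟨σ, hσ, h⟩ := h
      exact (T'.eq_iff _ _).2 ⟨σ, hE ▸ hσ, HatNe.inv.injective h⟩
  · rcases (T.mem_iff χ).1 hχ with h | ⟨l, rfl⟩
    · exact ⟨β.symm ⟨χ, h⟩, T'.subset (β.symm _).2, by rw [hIX, β.apply_symm_apply]⟩
    · exact ⟨Y' (HatNe.inv.symm l), T'.mem _, by rw [hIY, Equiv.apply_symm_apply]⟩
  · by_cases h : η ∈ X'
    · simp only [ε, if_pos h]
      rcases T.sign _ (hIm η h) with h1 | h1 <;> rcases T'.sign η h with h2 | h2 <;>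
        simp [h1, h2]
    · simp only [ε, if_neg h]
      rcases T.sign₀ with h1 | h1 <;> rcases T'.sign₀ with h2 | h2 <;> simp [h1, h2]
  · obtain ⟨s, h1, h2, -⟩ := T.exists_sing' S hx
    rw [hμ, Finset.sum_congr rfl fun η hη => by rw [h1 _ (hIm η (mem_bset.1 hη))],
      Finset.sum_congr (s₁ := Finset.univ) rfl fun l _ => by
        rw [eq_neg_of_add_eq_zero_left (T'.reg l y hy)],
      ← Finset.mul_sum, ← Finset.sum_mul, ← Finset.mul_sum,
      HatNe.inv.sum_comp fun l => (Y l).1 x, h2, hn]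
    linear_combination (-n * s * ∑ χ ∈ bset X', δ' χ * χ.1 y) * T.sign₀_mul_self
  · obtain ⟨s, h1, h2, -⟩ := T'.exists_sing' S' hy
    rw [hμ, Finset.sum_congr rfl fun η hη => by rw [h1 _ (mem_bset.1 hη)],
      Finset.sum_congr (s₁ := Finset.univ) rfl fun l _ => by
        rw [eq_neg_of_add_eq_zero_left (T.reg _ x hx)],
      ← Finset.sum_mul, ← Finset.mul_sum, ← Finset.mul_sum, h2, hn',
      hsX fun χ => δ χ * χ.1 x]
    linear_combination (-n * s * ∑ χ ∈ bset X, δ χ * χ.1 x) * T'.sign₀_mul_self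
  · obtain ⟨k, u, a, -, ha, h1, h2⟩ := T.exists_sing S hx
    obtain ⟨k', v, a', -, ha', h1', h2'⟩ := T'.exists_sing S' hy
    choose N hN using sum_osum_inv_mul (inert ι e)
    have key : n * signedBijectionKernel b I ε x y =
        ∑ i, ∑ j, a i * a' j * (Nat.card A * N (u i) (v j)) := by
      have h3 : ∀ l, δ₀ * (Y (HatNe.inv l)).1 x * (δ₀' * (Y' l).1 y) = ∑ i, ∑ j, a i * a' j *
          (osum (inert ι e) (HatNe.inv l).1 (u i) * osum (inert ι e) l.1 (v j)) := fun l => by
        rw [h2, h2', hE, neg_mul, neg_mul, mul_neg, mul_neg, ← mul_assoc, ← mul_assoc _ (δ₀' : ℂ),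
          T.sign₀_mul_self, T'.sign₀_mul_self, one_mul, one_mul, neg_mul_neg, Finset.sum_mul_sum]
        exact Finset.sum_congr rfl fun i _ => Finset.sum_congr rfl fun j _ => by ring
      rw [hμ, Finset.sum_congr rfl (g := fun _ => (∑ i, a i) * ∑ j, a' j) fun η hη => by
        rw [h1 _ (hIm η (mem_bset.1 hη)), h1' _ (mem_bset.1 hη), mul_left_comm (δ _ : ℂ),
          T.sign_mul_self (hIm η (mem_bset.1 hη)), mul_left_comm (δ' _ : ℂ),
          T'.sign_mul_self (mem_bset.1 hη), mul_one, mul_one],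
        Finset.sum_const, card_bset, T'.card_X, hn', Finset.sum_congr rfl fun l _ => h3 l,
        Finset.sum_comm, Finset.sum_mul_sum, nsmul_eq_mul, ← mul_assoc, Finset.mul_sum,
        ← Finset.sum_add_distrib]
      refine Finset.sum_congr rfl fun i _ => ?_
      rw [Finset.sum_comm, Finset.mul_sum, ← Finset.sum_add_distrib]
      refine Finset.sum_congr rfl fun j _ => ?_
      rw [← Finset.mul_sum, hN, hn]
      ring
    have hinv := inv_natCast_mem_locRing hM (hn ▸ S.not_dvd_card_inert)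
    rw [(eq_inv_mul_iff_mul_eq₀ hn0).2 key, mul_div_assoc, mul_div_assoc, Finset.sum_div,
      Finset.sum_div]
    refine ⟨mul_mem hinv (sum_mem fun i _ => ?_), mul_mem hinv (sum_mem fun i _ => ?_)⟩ <;>
      rw [Finset.sum_div] <;> refine sum_mem fun j _ => ?_
    · convert mul_mem (ha i).div_mem (mul_mem (ha' j).mem (natCast_mem _ (N (u i) (v j)))) using 1
      ring
    · convert mul_mem (ha' j).div_mem (mul_mem (ha i).mem (natCast_mem _ (N (u i) (v j)))) using 1
      ring

end BT
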