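import Cfsg.Agent.Lib.Block.FE0
import Cfsg.Agent.Lib.Lin.Blich

/-!
# Free linear groups: the exceptional Zsigmondy cases
-/

set_option autoImplicit false
set_option linter.unusedSectionVars false

namespace FE

open Cfsg CT LG Subgroup

variable {E : Type*} [Group E] [Finite E]

theorem card_sylow_prime {t : ℕ} [ht : Fact t.Prime] (R : Sylow t E) (h1 : t ∣ Nat.card E)
    (h2 : ¬ t ^ 2 ∣ Nat.card E) : Nat.card R = t := by
  have h3 := mt (ht.out.pow_dvd_iff_le_factorization Nat.card_pos.ne').2 h2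
  have h4 := (ht.out.dvd_iff_one_le_factorization Nat.card_pos.ne').1 h1
  rw [R.card_eq_multiplicity, show (Nat.card E).factorization t = 1 by omega, pow_one]

theorem exists_gen {t : ℕ} [ht : Fact t.Prime] {N : Subgroup E} (h : Nat.card N = t) :
    ∃ y, zpowers y = N ∧ orderOf y = t := by
  obtain ⟨y, hy⟩ := (Subgroup.isCyclic_iff_exists_zpowers_eq_top N).1 (isCyclic_of_prime_card h)
  exact ⟨y, hy, by rw [← Nat.card_zpowers, hy, h]⟩

namespace FreeCh

variable {p : ℕ} [hp : Fact p.Prime] {β : E → ℂ} (F : FreeCh p β)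
include F

theorem count_mul_le [DecidableEq ℂ] {g : E} {s : Multiset ℂ} (h : IsEig β g s) {m : ℕ}
    (hy : ∀ j, 0 < j → j < m → ¬ orderOf g ∣ p ^ j - 1) (c : ℂ) :
    m * s.count c ≤ charDegree β := by
  by_cases hc : c ∈ s
  swap
  · simp [Multiset.count_eq_zero_of_notMem hc]
  have h1 : ((Finset.range m).image fun i => c ^ p ^ i).card = m := by
    rw [Finset.card_image_of_injOn fun i hi j hj e =>
      F.pow_pow_inj h hc hy (Finset.mem_range.1 hi) (Finset.mem_range.1 hj) e, Finset.card_range]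
  rw [← h.card, ← Multiset.toFinset_sum_count_eq, ← h1]
  refine (Finset.card_nsmul_le_sum _ (fun a => s.count a) _ fun a ha => ?_).trans
    (Finset.sum_le_sum_of_subset fun a ha => ?_) <;> obtain ⟨i, -, rfl⟩ := Finset.mem_image.1 ha
  · have h2 := Multiset.map_le_map (f := (· ^ p ^ i)) (Multiset.le_count_iff_replicate_le.1
      (le_refl (s.count c)))
    rw [map_pow_eq (F.frob_pow i) h, Multiset.map_replicate] at h2
    exact Multiset.le_count_iff_replicate_le.2 h2
  · exact Multiset.mem_toFinset.2 (F.pow_mem h hc i)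

theorem exc_cent {q t m : ℕ} (hq : q.Prime) (ht : t.Prime) (hn : charDegree β ≠ 0)
    (h1 : 2 * charDegree β + 1 < q) (h2 : q ∣ Nat.card E) (h3 : ¬ q ^ 2 ∣ Nat.card E)
    (h4 : t ∣ Nat.card E) (h5 : ¬ t ^ 2 ∣ Nat.card E) (h6 : ¬ t ∣ q - 1)
    (h7 : ∀ j, 0 < j → j < m → ¬ q ∣ p ^ j - 1) (h8 : charDegree β < m * 3) (h9 : 5 < t) :
    ∃ y : E, (zpowers y).Normal ∧ orderOf y = t := by
  classical
  have := Fact.mk hq
  have := Fact.mk ht
  obtain ⟨R⟩ : Nonempty (Sylow q E) := inferInstance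
  have hR := sylow_normal_of_two_mul_lt F.char (F.ker_eq_bot' hn) h1 R
  have hc := card_sylow_prime R h2 h3
  obtain ⟨z, hz, hzo⟩ := exists_gen hc
  set C := centralizer ((R : Subgroup E) : Set E)
  have h10 : C.index ∣ q - 1 := by
    have e : (MulAut.conjNormal (H := (R : Subgroup E))).ker = C := by
      ext g
      simp only [MonoidHom.mem_ker, C, mem_centralizer_iff, MulEquiv.ext_iff, Subtype.ext_iff,
        MulAut.conjNormal_apply, MulAut.one_apply, mul_inv_eq_iff_eq_mul, Subtype.forall,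
        SetLike.mem_coe]
      exact forall₂_congr fun _ _ => eq_comm
    have e' := (isCyclic_of_prime_card hc).card_mulAut
    rw [hc, Nat.totient_prime hq] at e'
    rw [← e, index_ker, ← e']
    exact card_subgroup_dvd_card _
  have h11 : t ∣ Nat.card C := ((Nat.Prime.dvd_mul ht).1 (C.card_mul_index ▸ h4)).resolve_right
    fun h => h6 (h.trans h10)
  have hzR : z ∈ (R : Subgroup E) := hz ▸ mem_zpowers z
  have hzC : z ∈ C := fun x hx => by
    obtain ⟨k, rfl⟩ := mem_zpowers_iff.1 (hz ▸ hx : x ∈ zpowers z)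
    exact (Commute.refl z).zpow_left k
  obtain ⟨ψ, e1, e2, -⟩ := (F.res C).exists_irr hn
  obtain ⟨s, hs⟩ := exists_isEig F.char z
  obtain ⟨c, hc'⟩ := (F.res C).exists_degree_le_count e1 (z := ⟨z, hzC⟩)
    (mem_center_iff.2 fun g => Subtype.ext (g.2 z hzR).symm) (hs.congr fun _ => rfl)
  have h12 := (F.count_mul_le hs (hzo ▸ h7) c).trans_lt h8
  have h13 := Nat.lt_of_mul_lt_mul_left h12
  obtain ⟨T⟩ : Nonempty (Sylow t C) := inferInstance
  have := T.characteristic_of_normal
    (sylow_normal_of_two_mul_lt (irr_isCharacter ψ) e2 (by omega) T)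
  obtain ⟨y, hy, hyo⟩ := exists_gen (N := (T : Subgroup C).map C.subtype)
    ((card_subtype _ _).trans (card_sylow_prime T h11 fun h =>
      h5 (h.trans (card_subgroup_dvd_card C))))
  exact ⟨y, hy ▸ inferInstance, hyo⟩

theorem exc_count {t a : ℕ} (ht : t.Prime) (ht2 : t ≠ 2) (hn : charDegree β ≠ 0)
    (h2 : 2 ∣ Nat.card E) (h4 : t ∣ Nat.card E) (h5 : Nat.card E ∣ 2 * t * a) (h6 : ¬ t ∣ a)
    (h7 : ∀ d ∈ a.divisors, d % t = 1 → d = 1) : ∃ y : E, (zpowers y).Normal ∧ orderOf y = t := by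
  have := Fact.mk ht
  have ha : a ≠ 0 := fun e => h6 (e ▸ dvd_zero t)
  have h8 : t.Coprime 2 := (Nat.coprime_primes ht Nat.prime_two).2 ht2
  obtain ⟨R⟩ : Nonempty (Sylow t E) := inferInstance
  have hc := card_sylow_prime R h4 fun h => h6 (h8.dvd_of_dvd_mul_left
    (Nat.dvd_of_mul_dvd_mul_left ht.pos (by
      rw [← sq, mul_left_comm, ← mul_assoc]; exact h.trans h5)))
  obtain ⟨z, hz⟩ := exists_prime_orderOf_dvd_card' 2 h2
  have h9 : 2 * t ∣ Nat.card (normalizer ((R : Subgroup E) : Set E)) :=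
    h8.symm.mul_dvd_of_dvd_of_dvd (hz ▸ orderOf_dvd_natCard _ (center_le_normalizer _
      (F.mem_center_of_mul_self hn (by rw [← sq, ← hz, pow_orderOf_eq_one]))))
      (hc.symm.dvd.trans (card_dvd_of_le le_normalizer))
  have e : Nat.card (Sylow t E) = (normalizer ((R : Subgroup E) : Set E)).index :=
    R.card_eq_index_normalizer
  have h10 : Nat.card (Sylow t E) ∣ a := Nat.dvd_of_mul_dvd_mul_left (Nat.mul_pos two_pos ht.pos)
    ((Nat.mul_dvd_mul_right h9 _).trans (by rw [e, card_mul_index]; exact h5))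
  have h11 := h7 _ (Nat.mem_divisors.2 ⟨h10, ha⟩)
    (Eq.trans (card_sylow_modEq_one t E) (Nat.mod_eq_of_lt ht.one_lt))
  obtain ⟨y, hy, hyo⟩ := exists_gen hc
  rw [e, index_eq_one, normalizer_eq_top_iff] at h11
  exact ⟨y, hy ▸ h11, hyo⟩

/-- The exceptional cases. -/
theorem exists_normal_gen_exc {r : ℕ} (hr : r = 1 ∨ r = 2)
    (hc : Nat.card E * r + 1 = p ^ charDegree β)
    (h : (p = 5 ∧ charDegree β = 6) ∨ (p = 17 ∧ charDegree β = 6) ∨ (p = 3 ∧ charDegree β = 18) ∨
      (p = 3 ∧ charDegree β = 4) ∨ (p = 3 ∧ charDegree β = 6)) :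
    ∃ y : E, (zpowers y).Normal ∧ ∀ j, 0 < j → j < charDegree β → ¬ orderOf y ∣ p ^ j - 1 := by
  have e : Nat.card E + 1 = p ^ charDegree β ∨ Nat.card E * 2 + 1 = p ^ charDegree β := by
    rcases hr with rfl | rfl <;> omega
  clear hc
  rcases h with ⟨rfl, h⟩ | ⟨rfl, h⟩ | ⟨rfl, h⟩ | ⟨rfl, h⟩ | ⟨rfl, h⟩ <;> rw [h] at e
  · obtain ⟨y, h1, h2⟩ := F.exc_cent (q := 31) (t := 7) (m := 3) (by norm_num) (by norm_num)
      (by omega) (by omega) (by omega) (by omega) (by omega) (by omega) (by omega)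
      (fun j _ _ => by interval_cases j <;> omega) (by omega) (by omega)
    exact ⟨y, h1, fun j _ _ => by rw [h2]; rw [h] at *; interval_cases j <;> omega⟩
  · obtain ⟨y, h1, h2⟩ := F.exc_cent (q := 307) (t := 7) (m := 3) (by norm_num) (by norm_num)
      (by omega) (by omega) (by omega) (by omega) (by omega) (by omega) (by omega)
      (fun j _ _ => by interval_cases j <;> omega) (by omega) (by omega)
    exact ⟨y, h1, fun j _ _ => by rw [h2]; rw [h] at *; interval_cases j <;> omega⟩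
  · obtain ⟨y, h1, h2⟩ := F.exc_cent (q := 757) (t := 19) (m := 9) (by norm_num) (by norm_num)
      (by omega) (by omega) (by omega) (by omega) (by omega) (by omega) (by omega)
      (fun j _ _ => by interval_cases j <;> omega) (by omega) (by omega)
    exact ⟨y, h1, fun j _ _ => by rw [h2]; rw [h] at *; interval_cases j <;> omega⟩
  · obtain ⟨y, h1, h2⟩ := F.exc_count (t := 5) (a := 8) (by norm_num) (by omega) (by omega)
      (by omega) (by omega) (e.elim (fun _ => ⟨1, by omega⟩) fun _ => ⟨2, by omega⟩) (by omega)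
      (by decide)
    exact ⟨y, h1, fun j _ _ => by rw [h2]; rw [h] at *; interval_cases j <;> omega⟩
  · obtain ⟨y, h1, h2⟩ := F.exc_count (t := 7) (a := 52) (by norm_num) (by omega) (by omega)
      (by omega) (by omega) (e.elim (fun _ => ⟨1, by omega⟩) fun _ => ⟨2, by omega⟩) (by omega)
      (by decide)
    exact ⟨y, h1, fun j _ _ => by rw [h2]; rw [h] at *; interval_cases j <;> omega⟩

end FreeCh

end FE
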