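import Cfsg.Agent.Lib.Block.FE5
import Cfsg.Agent.Lib.Block.FE1

/-!
# Free linear groups with at most two orbits have a window
-/

set_option autoImplicit false

namespace FE

open Cfsg CT LG Subgroup

variable {E : Type*} [Group E] [Finite E] {p : ℕ} [hp : Fact p.Prime] {β : E → ℂ}

theorem FreeCh.win (F : FreeCh p β) (hp2 : p ≠ 2) (h2 : 2 ≤ charDegree β) {r : ℕ}
    (hr : r = 1 ∨ r = 2) (hc : Nat.card E * r + 1 = p ^ charDegree β)
    (h9 : p ^ charDegree β ≠ 9 ∨ (r = 1 ∧ IsCyclic E)) : Win p β (7 - r) :=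
  F.win_of hp2 h2 hr hc h9 fun h => F.exists_normal_gen hp2 h hr hc

end FE
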