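import Cfsg.Agent.Lib.Block.PairsFus
import Cfsg.Prelude.Def_BlockFusion

/-!
# The fusion system of a block
-/

set_option autoImplicit false
set_option linter.unusedSectionVars false
set_option linter.unusedVariables false

namespace BT

open Cfsg CT GT
open scoped MonoidAlgebra Pointwise

variable {p : ℕ} [Fact p.Prime] {M : Ideal AlgInt} (hM : IsPModular p M)
variable {G : Type*} [Group G] [Finite G]
variable {P Q : Subgroup G} {e : Set (IrrCharacter (Subgroup.centralizer (P : Set G)))}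
  {f : Set (IrrCharacter (Subgroup.centralizer (Q : Set G)))} {B : Set (IrrCharacter G)}
  {F : FusionSystem P}

theorem range_eq_conj_smul {φ : Q →* G} {g : G} (h : ∀ u : Q, φ u = g * (u : G) * g⁻¹) :
    φ.range = MulAut.conj g • Q := by
  ext y
  rw [mem_conj_smul', MonoidHom.mem_range]
  exact ⟨fun ⟨u, hu⟩ => ⟨u, u.2, by rw [← h, hu]⟩, fun ⟨u, hu, h'⟩ => ⟨⟨u, hu⟩, by rw [h, h']⟩⟩

theorem blockHom_iff (he : IsBrauerPair p M P e) (φ : Q →* G) :
    (Q ≤ P ∧ ∃ g : G, (∀ u : Q, φ u = g * (u : G) * g⁻¹) ∧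
        Q.map (MulAut.conj g).toMonoidHom ≤ P ∧
        ∃ f : Set (IrrCharacter (Subgroup.centralizer (Q : Set G))),
          SubpairLE p M Q f P e ∧
            SubpairLE p M (Q.map (MulAut.conj g).toMonoidHom) (conjBlock Q g f) P e) ↔
      ∃ g : G, (∀ u : Q, φ u = g * (u : G) * g⁻¹) ∧ Fus p ⊤ P (sidem hM _ e) Q g := by
  constructor
  · rintro ⟨-, g, hg, -, f, h1, h2⟩
    have h3 := (subpairLE_iff hM he).1 h1
    exact ⟨g, hg, Subgroup.mem_top g, _, h3.2, (subpairLE_conjBlock_iff hM he h3.1 g).1 h2⟩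
  · rintro ⟨g, hg, -, y, h1, h2⟩
    obtain ⟨f, hf, rfl⟩ := h1.left.exists_isBrauerPair hM
    exact ⟨h1.le, g, hg, h2.le, f, (subpairLE_iff hM he).2 ⟨hf.2, h1⟩,
      (subpairLE_conjBlock_iff hM he hf.2 g).2 h2⟩

theorem mem_hom_iff_fus (hF : IsBlockFusionSystemOn p M B P e F) {φ : Q →* G} :
    φ ∈ F.Hom Q ↔
      ∃ g : G, (∀ u : Q, φ u = g * (u : G) * g⁻¹) ∧ Fus p ⊤ P (sidem hM _ e) Q g :=
  (hF.2 Q φ).trans (blockHom_iff hM hF.1.1.1 φ)

theorem isConj_iff_fus (hF : IsBlockFusionSystemOn p M B P e F) {Q' : Subgroup G} :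
    F.IsConj Q Q' ↔ ∃ g : G, Fus p ⊤ P (sidem hM _ e) Q g ∧ MulAut.conj g • Q = Q' := by
  constructor
  · rintro ⟨φ, hφ, rfl⟩
    obtain ⟨g, hg, h⟩ := (mem_hom_iff_fus hM hF).1 hφ
    exact ⟨g, h, (range_eq_conj_smul hg).symm⟩
  · rintro ⟨g, h, rfl⟩
    exact ⟨conjHom Q g, (mem_hom_iff_fus hM hF).2 ⟨g, fun _ => rfl, h⟩,
      range_eq_conj_smul fun _ => rfl⟩

/-- The fusion system attached to a pair `(P, y)`. -/
def pairFusion {y : (ResF hM)[G]} (hy : BP p ⊤ P y) : FusionSystem P where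
  Hom Q := {φ | ∃ g : G, (∀ u : Q, φ u = g * (u : G) * g⁻¹) ∧ Fus p ⊤ P y Q g}
  le_of_mem := by
    rintro Q φ ⟨g, hg, h⟩
    exact ⟨h.le hM, fun u => h.conj_le hM (by rw [hg]; exact conj_mem_conj_smul.2 u.2)⟩
  injective_of_mem := by
    rintro Q φ ⟨g, hg, -⟩ a b hab
    have h : g * (a : G) * g⁻¹ = g * (b : G) * g⁻¹ := ((hg a).symm.trans hab).trans (hg b)
    exact Subtype.ext (mul_left_cancel (mul_right_cancel h))
  conj_mem := fun hQ hg => ⟨_, fun _ => rfl, fus_of_mem hM hy le_top hQ hg⟩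
  comp_mem := by
    rintro Q R φ ψ ⟨g, hg, h1⟩ ⟨k, hk, h2⟩ h
    refine ⟨k * g, fun u => ?_, h1.comp hM (h2.restrict hM ?_)⟩
    · show ψ (φ.codRestrict R h u) = _
      rw [hk]
      show k * φ u * k⁻¹ = _
      rw [hg]
      group
    · rw [← range_eq_conj_smul hg]
      rintro _ ⟨u, rfl⟩
      exact h u
  inv_mem := by
    rintro Q φ ⟨g, hg, h⟩
    refine ⟨conjHom φ.range g⁻¹, ⟨g⁻¹, fun _ => rfl, ?_⟩, fun u => ?_⟩
    · rw [range_eq_conj_smul hg]
      exact h.inv hM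
    · show g⁻¹ * φ u * g⁻¹⁻¹ = u
      rw [hg]
      group

theorem isBlockFusionSystemOn_pairFusion (hmax : IsMaximalBrauerPair p M B P e) :
    IsBlockFusionSystemOn p M B P e (pairFusion hM (bp_of_isBrauerPair hM hmax.1.1)) :=
  ⟨hmax, fun _ φ => (blockHom_iff hM hmax.1.1 φ).symm⟩

theorem isFullyNormalized_iff (hF : IsBlockFusionSystemOn p M B P e F) {y : (ResF hM)[G]}
    (hy : PLe p ⊤ Q y P (sidem hM _ e)) : F.IsFullyNormalized Q ↔
      DefGrp p (NP ⊤ Q y) y (P ⊓ Subgroup.normalizer (Q : Set G)) := by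
  have h := IsMaximalBrauerPair.maxBP' hM hF.1
  rw [← hy.inf_NP hM le_top, h.defGrp_inf_iff hM hy le_rfl (hy.left.bIdem_NP hM le_top),
    hy.inf_NP hM le_top, FusionSystem.IsFullyNormalized, and_iff_right hy.le]
  constructor
  · intro h1 x hx h2
    rw [conj_smul_NP_of_mem (mem_normalizer_top x), h2.inf_NP hM le_top]
    exact h1 _ ((isConj_iff_fus hM hF).2 ⟨x, ⟨hx, y, hy, h2⟩, rfl⟩)
  · intro h1 Q' hQ'
    obtain ⟨x, hx, rfl⟩ := (isConj_iff_fus hM hF).1 hQ'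
    have h2 := ((fus_iff hM hy).1 hx).2
    have := h1 x hx.1 h2
    rwa [conj_smul_NP_of_mem (mem_normalizer_top x), h2.inf_NP hM le_top] at this

theorem isFullyCentralized_iff (hF : IsBlockFusionSystemOn p M B P e F) {y : (ResF hM)[G]}
    (hy : PLe p ⊤ Q y P (sidem hM _ e)) : F.IsFullyCentralized Q ↔
      DefGrp p (Subgroup.centralizer (Q : Set G)) y (P ⊓ Subgroup.centralizer (Q : Set G)) := by
  have h := IsMaximalBrauerPair.maxBP' hM hF.1
  rw [h.defGrp_inf_iff hM hy ((le_inf le_top le_rfl).trans hy.left.inf_centralizer_le_NP)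
    hy.left.bidem_top, FusionSystem.IsFullyCentralized, and_iff_right hy.le]
  constructor
  · intro h1 x hx h2
    rw [conj_smul_centralizer]
    exact h1 _ ((isConj_iff_fus hM hF).2 ⟨x, ⟨hx, y, hy, h2⟩, rfl⟩)
  · intro h1 Q' hQ'
    obtain ⟨x, hx, rfl⟩ := (isConj_iff_fus hM hF).1 hQ'
    have := h1 x hx.1 ((fus_iff hM hy).1 hx).2
    rwa [conj_smul_centralizer] at this

theorem isCentric_iff (hF : IsBlockFusionSystemOn p M B P e F) {y : (ResF hM)[G]}
    (hy : PLe p ⊤ Q y P (sidem hM _ e)) : F.IsCentric Q ↔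
      DefGrp p (Subgroup.centralizer (Q : Set G)) y (Q ⊓ Subgroup.centralizer (Q : Set G)) := by
  have h := IsMaximalBrauerPair.maxBP' hM hF.1
  rw [FusionSystem.IsCentric, and_iff_right hy.le]
  constructor
  · intro h1
    obtain ⟨x, hx, h2, h3⟩ := h.exists_conj_defGrp' hM hy
      ((le_inf le_top le_rfl).trans hy.left.inf_centralizer_le_NP) hy.left.bidem_top
    have h4 := h1 _ ((isConj_iff_fus hM hF).2 ⟨x, ⟨hx, y, hy, h2⟩, rfl⟩)
    have h5 : P ⊓ MulAut.conj x • Subgroup.centralizer (Q : Set G) =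
        MulAut.conj x • (Q ⊓ Subgroup.centralizer (Q : Set G)) := by
      rw [Subgroup.smul_inf]
      refine le_antisymm (le_inf ?_ inf_le_right) (inf_le_inf_right _ h2.le)
      rw [conj_smul_centralizer]
      exact h4
    rw [h5] at h3
    have h6 := h3.conj x⁻¹
    rwa [← conj_smul_eq_map, ← conj_smul_eq_map, conj_inv_smul_conj_smul,
      conj_inv_smul_conj_smul, cj_inv_cj] at h6
  · intro h1 Q' hQ'
    obtain ⟨x, hx, rfl⟩ := (isConj_iff_fus hM hF).1 hQ'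
    have h2 := ((fus_iff hM hy).1 hx).2
    have h3 := h1.conj x
    rw [← conj_smul_eq_map, ← conj_smul_eq_map, Subgroup.smul_inf, conj_smul_centralizer] at h3
    have h4 := h3.eq_of_le inf_le_right (h.bp.pgroup.to_le inf_le_left)
      (h2.br_inf_ne_zero hM (Subgroup.centralizer_le_normalizer _)) (inf_le_inf_right _ h2.le)
    exact h4.le.trans inf_le_left

theorem autInducedBy_eq_map (K Q : Subgroup G) : autInducedBy K Q =
    (K.subgroupOf (Subgroup.normalizer (Q : Set G))).map Q.normalizerMonoidHom := by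
  rw [autInducedBy, ← Subgroup.closure_eq ((K.subgroupOf _).map _)]
  congr 1
  ext α
  constructor
  · rintro ⟨g, hg, h⟩
    have hgN : g ∈ Subgroup.normalizer (Q : Set G) :=
      mem_normalizer_of_conj_mem fun x hx => by rw [← h ⟨x, hx⟩]; exact (α ⟨x, hx⟩).2
    exact ⟨⟨g, hgN⟩, hg, MulEquiv.ext fun x => Subtype.ext (h x).symm⟩
  · rintro ⟨g, hg, rfl⟩
    exact ⟨g, hg, fun _ => rfl⟩

theorem autGroup_eq_autInducedBy (hF : IsBlockFusionSystemOn p M B P e F) {y : (ResF hM)[G]}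
    (hy : PLe p ⊤ Q y P (sidem hM _ e)) : F.autGroup Q = autInducedBy (NP ⊤ Q y) Q := by
  rw [FusionSystem.autGroup, autInducedBy]
  congr 1
  ext α
  rw [Set.mem_ofPred_eq, mem_hom_iff_fus hM hF]
  constructor
  · rintro ⟨g, hg, h⟩
    exact ⟨g, h.mem_NP hM hy (mem_normalizer_of_conj_mem fun x hx => by
      rw [← hg ⟨x, hx⟩]; exact (α ⟨x, hx⟩).2), hg⟩
  · rintro ⟨g, hg, h⟩
    exact ⟨g, h, hy.fus_of_mem_NP hM hg⟩

theorem isFullyAutomized_of_defGrp (hF : IsBlockFusionSystemOn p M B P e F) {y : (ResF hM)[G]}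
    (hy : PLe p ⊤ Q y P (sidem hM _ e))
    (hD : DefGrp p (NP ⊤ Q y) y (P ⊓ Subgroup.normalizer (Q : Set G))) :
    F.IsFullyAutomized p Q := by
  refine ⟨hy.le, ?_⟩
  obtain ⟨S, hS, hle⟩ := hy.left.exists_isSylowIn_le_sup hM hD
  have h1 := ((isSylowIn_subgroupOf_iff (hS.le.trans NP_le_normalizer) NP_le_normalizer).2 hS).map
    Q.normalizerMonoidHom
  have h2 : IsSylowIn p (autInducedBy P Q) (F.autGroup Q) := by
    rw [autGroup_eq_autInducedBy hM hF hy, autInducedBy_eq_map, autInducedBy_eq_map]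
    have h3 : IsPGroup p ((P.subgroupOf (Subgroup.normalizer (Q : Set G))).map
        Q.normalizerMonoidHom) := (hy.right.pgroup.comap_subtype).map _
    have h4 : (P.subgroupOf (Subgroup.normalizer (Q : Set G))).map Q.normalizerMonoidHom ≤
        ((NP ⊤ Q y).subgroupOf (Subgroup.normalizer (Q : Set G))).map Q.normalizerMonoidHom :=
      Subgroup.map_mono fun x hx => hD.le ⟨hx, x.2⟩
    refine h1.of_card_ge h3 h4 (Subgroup.card_le_of_le ?_)
    rintro _ ⟨x, hx, rfl⟩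
    obtain ⟨u, hu, c, hc, h5⟩ := (mem_sup_of_le_normalizer_right
      (hD.le.trans NP_le_normalizer_inf_centralizer)).1 (hle hx)
    refine ⟨⟨u, hu.2⟩, hu.1, MulEquiv.ext fun z => Subtype.ext ?_⟩
    change u * z * u⁻¹ = x * z * (x : G)⁻¹
    rw [← show u * c = x from h5]
    calc u * z * u⁻¹ = u * (z * c) * c⁻¹ * u⁻¹ := by group
      _ = u * c * z * (u * c)⁻¹ := by rw [hc.2 z z.2]; group
  exact ⟨h2.toSylow, rfl⟩

theorem isReceptive_of_defGrp (hF : IsBlockFusionSystemOn p M B P e F) {y : (ResF hM)[G]}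
    (hy : PLe p ⊤ Q y P (sidem hM _ e))
    (hD : DefGrp p (NP ⊤ Q y) y (P ⊓ Subgroup.normalizer (Q : Set G))) :
    F.IsReceptive Q := by
  refine ⟨hy.le, fun Q₁ φ hφ hr => ?_⟩
  have h := IsMaximalBrauerPair.maxBP' hM hF.1
  obtain ⟨g, hg, -, y₁, h1, h2⟩ := (mem_hom_iff_fus hM hF).1 hφ
  rw [range_eq_conj_smul hg] at hr
  subst hr
  obtain rfl := hy.unique hM h2
  set E := FusionSystem.extender P Q₁ φ with hE
  have hEP : E ≤ P ⊓ Subgroup.normalizer (Q₁ : Set G) :=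
    (Subgroup.closure_le _).2 fun z hz => ⟨hz.1, hz.2.1⟩
  have hQE : Q₁ ≤ E := fun z hz => Subgroup.subset_closure ⟨h1.le hz, Subgroup.le_normalizer hz,
    g * z * g⁻¹, h2.le (conj_mem_conj_smul.2 hz), fun x hx => by rw [hg, hg]; simp only; group⟩
  set D := P ⊓ Subgroup.normalizer ((MulAut.conj g • Q₁ : Subgroup G) : Set G) with hDdef
  set C := ⊤ ⊓ Subgroup.centralizer ((MulAut.conj g • Q₁ : Subgroup G) : Set G) with hCdef
  have hEL : MulAut.conj g • E ≤ D ⊔ C := by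
    rw [Subgroup.pointwise_smul_subset_iff, hE, FusionSystem.extender, Subgroup.closure_le]
    rintro z ⟨hzP, hzN, k, hk, hzk⟩
    rw [SetLike.mem_coe, ← map_inv, mem_conj_smul, inv_inv]
    have h3 : ∀ w ∈ MulAut.conj g • Q₁, (g * z * g⁻¹) * w * (g * z * g⁻¹)⁻¹ = k * w * k⁻¹ := by
      intro w hw
      obtain ⟨x, hx, rfl⟩ := mem_conj_smul'.1 hw
      have := hzk ⟨x, hx⟩ (conj_mem_of_mem_normalizer hzN hx)
      rw [hg, hg] at this
      rw [← this]
      simp only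
      group
    have h4 : g * z * g⁻¹ ∈ Subgroup.normalizer ((MulAut.conj g • Q₁ : Subgroup G) : Set G) := by
      rw [← conj_smul_normalizer]
      exact conj_mem_conj_smul.2 hzN
    have h5 : k ∈ D := ⟨hk, mem_normalizer_of_conj_mem fun w hw => by
      rw [← h3 w hw]; exact conj_mem_of_mem_normalizer h4 hw⟩
    have h6 : k⁻¹ * (g * z * g⁻¹) ∈ C := ⟨Subgroup.mem_top _, fun w hw => by
      calc w * (k⁻¹ * (g * z * g⁻¹)) = k⁻¹ * (k * w * k⁻¹) * (g * z * g⁻¹) := by group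
        _ = k⁻¹ * (g * z * g⁻¹) * w := by rw [← h3 w hw]; group⟩
    have := (D ⊔ C).mul_mem (Subgroup.mem_sup_left h5) (Subgroup.mem_sup_right h6)
    rwa [mul_inv_cancel_left] at this
  obtain ⟨eE, heE⟩ := h.bp.exists_ple hM (hEP.trans inf_le_left)
  obtain ⟨d, hd⟩ := h.bp.exists_ple hM (Q := D) inf_le_left
  have hQD : MulAut.conj g • Q₁ ≤ D := le_inf h2.le Subgroup.le_normalizer
  have hL : D ⊔ C ≤ NP ⊤ (MulAut.conj g • Q₁) (cj g y₁) :=
    sup_le hD.le h2.left.inf_centralizer_le_NP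
  obtain ⟨l, hl, h7⟩ := ((h2.of_le hM hd hQD).nsub hM inf_le_right).exists_conj_ple_of_defGrp hM
    (((h1.of_le hM heE hQE).nsub hM (hEP.trans inf_le_right)).conj (mem_normalizer_top g))
    (hQD.trans le_sup_left) le_sup_right hL
    (hD.of_le_of_bIdem hM le_sup_left hL (h2.left.bIdem_of_le hM le_top (hQD.trans le_sup_left)
      le_sup_right (hL.trans NP_le_normalizer) (isFixed_NP.mono hL))) hEL
  obtain ⟨u, hu, c, hc, rfl⟩ := (mem_sup_of_le_normalizer_right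
    (hD.le.trans NP_le_normalizer_inf_centralizer)).1 hl
  have h8 := (h7.trans hd).conj_of_mem (P.inv_mem hu.1)
  rw [conj_smul_conj_smul, conj_smul_conj_smul, ← cj_mul, ← cj_mul, inv_mul_cancel_left] at h8
  refine ⟨conjHom E (c * g), (mem_hom_iff_fus hM hF).2
    ⟨c * g, fun _ => rfl, Subgroup.mem_top _, eE, heE, h8⟩, fun x hx hxE => ?_⟩
  rw [hg]
  change c * g * x * (c * g)⁻¹ = g * x * g⁻¹
  calc c * g * x * (c * g)⁻¹ = c * (g * x * g⁻¹) * c⁻¹ := by group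
    _ = g * x * g⁻¹ := by rw [← hc.2 _ (conj_mem_conj_smul.2 hx), mul_inv_cancel_right]

include hM in
theorem isSaturated_of_isBlockFusionSystemOn (hF : IsBlockFusionSystemOn p M B P e F) :
    F.IsSaturated p := by
  intro Q hQ
  have h := IsMaximalBrauerPair.maxBP' hM hF.1
  obtain ⟨y, hy⟩ := h.bp.exists_ple hM hQ
  obtain ⟨x, hx, h1, h2⟩ := h.exists_conj_fullyNormalized hM hy
  exact ⟨_, (isConj_iff_fus hM hF).2 ⟨x, ⟨hx, y, hy, h1⟩, rfl⟩,
    isFullyAutomized_of_defGrp hM hF h1 h2, isReceptive_of_defGrp hM hF h1 h2⟩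

theorem mem_focalSubgroup_of_fus (hF : IsBlockFusionSystemOn p M B P e F) {x u : G}
    (h : Fus p ⊤ P (sidem hM _ e) Q x) (hu : u ∈ Q) : u⁻¹ * (x * u * x⁻¹) ∈ F.focalSubgroup :=
  Subgroup.subset_closure ⟨Q, conjHom Q x, ⟨u, hu⟩,
    (mem_hom_iff_fus hM hF).2 ⟨x, fun _ => rfl, h⟩, rfl⟩

end BT
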