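import Cfsg.Agent.Lib.Block.IBr
import Cfsg.Agent.Lib.Block.Principal
import Cfsg.Agent.Lib.Block.GalBlock

/-!
# Traces of automorphisms and of Galois automorphisms on blocks
-/

set_option autoImplicit false
set_option linter.unusedSectionVars false

namespace BT

open Cfsg CT GT
open scoped MonoidAlgebra ComplexConjugate

variable {p : ℕ} [Fact p.Prime] {M : Ideal AlgInt} (hM : IsPModular p M)
variable {G : Type*} [Group G] [Finite G]

theorem idemChar_domCongr (α : G ≃* G) (e : ℂ[G]) (g : G) :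
    idemChar (MonoidAlgebra.domCongr ℂ ℂ α e) g = idemChar e (α.symm g) := by
  have := Fintype.ofFinite G
  rw [idemChar_apply, idemChar_apply]
  refine Fintype.sum_equiv α.symm.toEquiv _ _ fun x => ?_
  simp

theorem Wed.basicSet_Φ {hM : IsPModular p M} (W : Wed hM G) {B : Set (IrrCharacter G)}
    (hB : IsPBlock M B) (i : {i // W.blk i = B}) : (W.basicSet hB).Φ i = W.Φ i := by
  rw [W.Φ_eq_sum, ← sum_bset_eq_sum_univ B fun χ hχ => by
    rw [W.d_eq_zero_of_not_mem (i.2.symm ▸ hχ), Nat.cast_zero, zero_smul]]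
  exact Finset.sum_congr rfl fun χ _ => by simp [Wed.basicSet]

/-- Automorphisms map projective characters to projective characters. -/
theorem Wed.exists_Φ_comp_eq {hM : IsPModular p M} (W : Wed hM G) (α : G ≃* G) (i : Fin W.N) :
    ∃ n : Fin W.N → ℕ, (fun g => W.Φ i (α g)) = ∑ j, (n j : ℂ) • W.Φ j := by
  refine ⟨_, Eq.trans (funext fun g => (idemChar_domCongr α.symm (W.e i) g).symm)
    (W.idemChar_eq_sum_rank (fun g => ?_) (by rw [← map_mul, W.e_idem]))⟩
  rw [MonoidAlgebra.coeff_domCongr]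
  exact W.e_int i _

include hM in
/-- The trace of an automorphism on the `p`-regular part of a block is a natural number. -/
theorem exists_sum_bker_aut {B : Set (IrrCharacter G)} (hB : IsPBlock M B) [Fintype G]
    (α : G ≃* G) : ∃ n : ℕ,
      ∑ y : G, (if p ∣ orderOf y then 0 else bker B y (α y)) = (n : ℂ) := by
  classical
  obtain ⟨W⟩ := exists_wed hM G
  choose n hn using W.exists_Φ_comp_eq α
  refine ⟨Nat.card G * ∑ i : {i // W.blk i = B}, n i i, ?_⟩
  have h1 : ∀ y : G, (if p ∣ orderOf y then 0 else bker B y (α y)) =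
      ∑ i : {i // W.blk i = B}, W.φ i y * conj (W.Φ i (α y)) := fun y => by
    split_ifs with h
    · simp [W.φ_apply_of_dvd _ h]
    · rw [bker_def, (W.basicSet hB).sum_mul_conj_eq h]
      exact Finset.sum_congr rfl fun i _ => by rw [W.basicSet_Φ]; rfl
  simp only [h1]
  rw [Finset.sum_comm, Nat.cast_mul, Nat.cast_sum, Finset.mul_sum]
  refine Finset.sum_congr rfl fun i _ => ?_
  have h2 := ip_def (W.φ i) fun g => W.Φ i (α g)
  rw [eq_inv_mul_iff_mul_eq₀ card_cast_ne_zero] at h2
  rw [← h2, hn, ip_sum_right]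
  simp [ip_smul_right, W.ip_φ_Φ]

include hM in
/-- An automorphism fixing the `p'`-roots of unity fixes at least `l(B)` characters of `B`. -/
theorem blockRank_le_card_irrPow_fixed {B : Set (IrrCharacter G)} (hB : IsPBlock M B) {k : ℕ}
    (hk : k.Coprime (Nat.card G)) (h : ∀ g : G, ¬ p ∣ orderOf g → g ^ k = g) :
    blockRank p B ≤ Nat.card {χ : IrrCharacter G // χ ∈ B ∧ irrPow hk χ = χ} := by
  classical
  have := Fintype.ofFinite G
  have h1 : ∑ g : G, bker B g (g ^ k) =
      (Nat.card G * Nat.card {χ : IrrCharacter G // χ ∈ B ∧ irrPow hk χ = χ} : ℕ) := by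
    simp only [bker_def]
    rw [Finset.sum_comm, Nat.card_eq_fintype_card (α := Subtype _), Fintype.card_subtype,
      Finset.card_filter, Nat.cast_mul, Nat.cast_sum, Finset.mul_sum,
      ← sum_bset_eq_sum_univ B fun χ hχ => by simp [hχ]]
    refine Finset.sum_congr rfl fun χ hχ => ?_
    have h2 := ip_def χ.1 (irrPow hk χ).1
    rw [eq_inv_mul_iff_mul_eq₀ card_cast_ne_zero] at h2
    refine h2.symm.trans ?_
    by_cases h3 : irrPow hk χ = χ
    · simp [h3, mem_bset.1 hχ, ip_irr_self]
    · rw [ip_irr_ne (Ne.symm h3)]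
      simp [h3]
  have h2 : ∀ x : G, ∃ n : ℕ,
      ∑ g : G, (if pPart p g = x then bker B g (g ^ k) else 0) = (n : ℂ) := fun x => by
    by_cases hx : IsPElt p x ∧ IsConj x (x ^ k)
    swap
    · refine ⟨0, (Finset.sum_eq_zero fun g _ => ?_).trans Nat.cast_zero.symm⟩
      split_ifs with hg
      · refine bker_eq_zero_of_not_isConj hM hB fun hc => hx ⟨hg ▸ isPElt_pPart p g, ?_⟩
        rwa [pPart_pow, hg] at hc
      · rfl
    obtain ⟨hx, hc⟩ := hx
    obtain ⟨c, hc⟩ := isConj_iff.1 hc.symm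
    have hcN : c ∈ Subgroup.normalizer (Subgroup.centralizer ({x} : Set G) : Set G) := by
      refine mem_normalizer_of_conj_mem fun y hy => ?_
      rw [Subgroup.mem_centralizer_singleton_iff] at hy ⊢
      have h3 : y * x ^ k = x ^ k * y := (Commute.pow_right hy k).eq
      conv_lhs => rw [← hc]
      conv_rhs => rw [← hc]
      simp only [mul_assoc, inv_mul_cancel_left]
      rw [← mul_assoc y, h3, mul_assoc]
    have := Fintype.ofFinite (Subgroup.centralizer ({x} : Set G))
    let α := Subgroup.normalizerMonoidHom _ ⟨c, hcN⟩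
    choose! n hn using fun (b : Set _) (hb : IsPBlock M b) => exists_sum_bker_aut hM hb α
    refine ⟨∑ b : Bl M (Subgroup.centralizer ({x} : Set G)),
      if IsInducedBlock M _ b.1 B then n b.1 else 0, ?_⟩
    have h3 : ∀ y : Subgroup.centralizer ({x} : Set G),
        (if IsPRegular p y then bker B (x * y) ((x * y) ^ k) else 0) =
        ∑ b : Bl M (Subgroup.centralizer ({x} : Set G)), if IsInducedBlock M _ b.1 B then
          (if p ∣ orderOf y then 0 else bker b.1 y (α y)) else 0 := fun y => by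
      by_cases hy : p ∣ orderOf y
      · simp [hy, isPRegular_iff]
      simp only [hy, isPRegular_iff, not_false_eq_true, if_true, if_false]
      rw [← bker_mul_mul_eq_sum hM rfl hx hB hy (by rwa [MulEquiv.orderOf_eq])]
      refine bker_of_isConj_right _ _ (isConj_iff.2 ⟨c, ?_⟩)
      have h4 : Commute x y := (Subgroup.mem_centralizer_singleton_iff.1 y.2).symm
      rw [h4.mul_pow, h y (by rwa [Subgroup.orderOf_coe])]
      refine Eq.trans ?_ (congrArg (· * (c * y * c⁻¹)) hc)
      group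
    rw [sum_pPart_eq hx fun g => bker B g (g ^ k), Finset.sum_congr rfl fun y _ => h3 y,
      Finset.sum_comm, Nat.cast_sum]
    refine Finset.sum_congr rfl fun b _ => ?_
    split_ifs with hb
    · exact hn b.1 b.2
    · simp
  choose n hn using h2
  have h3 : n 1 = Nat.card G * blockRank p B := by
    refine Nat.cast_injective (R := ℂ) ?_
    rw [← hn, Nat.cast_mul, ← sum_ip_pRegularPart_self hM hB, Finset.mul_sum]
    simp only [ip_def, mul_inv_cancel_left₀ (card_cast_ne_zero (G := G))]
    rw [Finset.sum_comm]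
    refine Finset.sum_congr rfl fun g _ => ?_
    by_cases hg : p ∣ orderOf g
    · simp [pPart_eq_one_iff, isPRegular_iff, hg, pRegularPart_apply]
    · simp [pPart_eq_one_iff, isPRegular_iff, hg, pRegularPart_apply, h g hg, bker_def]
  have h4 : ∑ x, n x =
      Nat.card G * Nat.card {χ : IrrCharacter G // χ ∈ B ∧ irrPow hk χ = χ} := by
    refine Nat.cast_injective (R := ℂ) ?_
    rw [← h1, Nat.cast_sum]
    simp only [← hn]
    rw [Finset.sum_comm]
    simp
  refine Nat.le_of_mul_le_mul_left ?_ (Nat.card_pos (α := G))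
  rw [← h3, ← h4]
  exact Finset.single_le_sum (fun _ _ => Nat.zero_le _) (Finset.mem_univ 1)

omit [Fact p.Prime] in
/-- For odd `p` the units congruent to one modulo the `p'`-part form a cyclic group. -/
theorem exists_generator_modEq_one (hp : p.Prime) (hodd : p ≠ 2) {n : ℕ} (hn : n ≠ 0) :
    ∃ k₀ : ℕ, k₀.Coprime n ∧ k₀ ≡ 1 [MOD ordCompl[p] n] ∧
      ∀ k : ℕ, k.Coprime n → k ≡ 1 [MOD ordCompl[p] n] → ∃ j : ℕ, k ≡ k₀ ^ j [MOD n] := by
  haveI := ZMod.isCyclic_units_of_prime_pow p hp hodd (n.factorization p)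
  haveI : NeZero (p ^ n.factorization p) := ⟨pow_ne_zero _ hp.ne_zero⟩
  obtain ⟨g, hg⟩ := IsCyclic.exists_monoid_generator (α := (ZMod (p ^ n.factorization p))ˣ)
  have hc : (p ^ n.factorization p).Coprime (ordCompl[p] n) :=
    (Nat.coprime_ordCompl hp hn).pow_left _
  obtain ⟨k₀, h1, h2⟩ := Nat.chineseRemainder hc g.1.val 1
  have he := Nat.ordProj_mul_ordCompl_eq_self n p
  refine ⟨k₀, ?_, h2, fun k hk hk1 => ?_⟩
  · rw [← he]
    refine Nat.Coprime.mul_right ?_ ?_
    · exact (Nat.ModEq.gcd_eq h1).trans (ZMod.val_coe_unit_coprime g)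
    · exact (Nat.ModEq.gcd_eq h2).trans (Nat.gcd_one_left _)
  · obtain ⟨j, hj⟩ := hg (ZMod.unitOfCoprime k (hk.coprime_dvd_right (Nat.ordProj_dvd n p)))
    refine ⟨j, ?_⟩
    rw [← he, ← Nat.modEq_and_modEq_iff_modEq_mul hc]
    refine ⟨?_, hk1.trans (by simpa using (h2.pow j).symm)⟩
    rw [← ZMod.natCast_eq_natCast_iff] at h1 ⊢
    have h3 := congrArg Units.val hj
    simp only [Units.val_pow_eq_pow_val, ZMod.coe_unitOfCoprime] at h3
    rw [Nat.cast_pow, h1, ZMod.natCast_zmod_val, h3]

end BT
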