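import Cfsg.Agent.Lib.Block.Principal

/-!
# Normal `p'`-subgroups in the kernel of a block, along inclusions of Brauer pairs

`avgF R K = |K|⁻¹ ∑_{k ∈ K} k`.  `PiKer ρ Q e`: the normal `ρ`-subgroups of `C(Q)` are in the kernel
of `e` (descends along inclusions of pairs); `HallKer ρ Q e`: the `ρ`-elements of `C(Q)` form a
subgroup in the kernel of `e` (ascends along inclusions of pairs).
-/

set_option autoImplicit false
set_option linter.unusedSectionVars false
set_option linter.unusedVariables false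

namespace BT

open Cfsg CT GT
open scoped MonoidAlgebra Pointwise

variable {p : ℕ} [Fact p.Prime] {G : Type*} [Group G] [Finite G]

section Avg

variable {R : Type*} [Field R]

open Classical in
/-- The average of the elements of `K`. -/
noncomputable def avgF (R : Type*) [Field R] (K : Subgroup G) : R[G] :=
  ofFun fun g => if g ∈ K then (Nat.card K : R)⁻¹ else 0

theorem coeff_avgF (K : Subgroup G) (g : G) [Decidable (g ∈ K)] :
    (avgF R K).coeff g = if g ∈ K then (Nat.card K : R)⁻¹ else 0 := by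
  rw [avgF, coeff_ofFun]; congr

theorem suppIn_avgF (K : Subgroup G) : SuppIn (K : Set G) (avgF R K) := by
  classical
  intro g hg
  rw [coeff_avgF] at hg
  by_contra h
  exact hg (if_neg h)

theorem isFixed_avgF {H K : Subgroup G} (h : H ≤ Subgroup.normalizer (K : Set G)) :
    IsFixed H (avgF R K) := by
  classical
  intro x hx g
  rw [coeff_avgF, coeff_avgF]
  exact if_congr ((Subgroup.mem_normalizer_iff.1 (h hx) g).symm) rfl rfl

theorem cj_avgF (x : G) (K : Subgroup G) : cj x (avgF R K) = avgF R (MulAut.conj x • K) := by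
  classical
  refine ga_ext fun g => ?_
  rw [coeff_cj, coeff_avgF, coeff_avgF, card_conj_smul]
  exact if_congr mem_conj_smul.symm rfl rfl

variable [CharP R p]

theorem natCast_ne_zero_of_not_dvd {n : ℕ} (h : ¬ p ∣ n) : (n : R) ≠ 0 := by
  rwa [Ne, CharP.cast_eq_zero_iff R p]

theorem avgF_mul_avgF {K L : Subgroup G} (hLK : L ≤ K) (hL : ¬ p ∣ Nat.card L) :
    avgF R L * avgF R K = avgF R K := by
  classical
  have := Fintype.ofFinite G
  refine ga_ext fun g => ?_
  rw [coeff_mul_eq_sum]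
  have h1 : ∀ x : G, (avgF R L).coeff x * (avgF R K).coeff (x⁻¹ * g) =
      if x ∈ L then (Nat.card L : R)⁻¹ * (avgF R K).coeff g else 0 := by
    intro x
    rw [coeff_avgF L]
    split_ifs with hx
    · rw [coeff_avgF, coeff_avgF]
      congr 1
      exact if_congr (K.mul_mem_cancel_left (K.inv_mem (hLK hx))) rfl rfl
    · rw [zero_mul]
  rw [Finset.sum_congr rfl fun x _ => h1 x, ← Finset.sum_filter, Finset.sum_const, nsmul_eq_mul]
  have h2 : (Finset.univ.filter fun x => x ∈ L).card = Nat.card L := by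
    rw [Nat.card_eq_fintype_card, Fintype.card_subtype]
  rw [h2, ← mul_assoc, mul_inv_cancel₀ (natCast_ne_zero_of_not_dvd (p := p) hL), one_mul]

theorem avgF_mul_of_le {K L : Subgroup G} (hLK : L ≤ K) (hL : ¬ p ∣ Nat.card L) {e : R[G]}
    (h : avgF R K * e = e) : avgF R L * e = e := by
  rw [← h, ← mul_assoc, avgF_mul_avgF (p := p) hLK hL]

theorem cIdem_avgF {H K : Subgroup G} (hKH : K ≤ H) (h : H ≤ Subgroup.normalizer (K : Set G))
    (hK : ¬ p ∣ Nat.card K) : CIdem H (avgF R K) :=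
  ⟨SuppIn.mono' hKH (suppIn_avgF K), isFixed_avgF h, avgF_mul_avgF (p := p) le_rfl hK⟩

theorem br_avgF {K P : Subgroup G} (hP : IsPGroup p P) (h : P ≤ Subgroup.normalizer (K : Set G)) :
    br P (avgF R K) = avgF R (K ⊓ Subgroup.centralizer (P : Set G)) := by
  classical
  have := Fintype.ofFinite G
  have h1 := sum_eq_sum_centralizer (R := R) hP (fun x => if x ∈ K then (1 : R) else 0)
    (fun x hx g => if_congr ((Subgroup.mem_normalizer_iff.1 (h hx) g).symm) rfl rfl)
  rw [Finset.sum_boole, Finset.sum_boole, Finset.filter_filter] at h1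
  have h2 : (Finset.univ.filter fun x => x ∈ K).card = Nat.card K := by
    rw [Nat.card_eq_fintype_card, Fintype.card_subtype]
  have h3 : (Finset.univ.filter fun x => x ∈ Subgroup.centralizer (P : Set G) ∧ x ∈ K).card =
      Nat.card ↥(K ⊓ Subgroup.centralizer (P : Set G)) := by
    rw [Nat.card_eq_fintype_card, Fintype.card_subtype]
    congr 1
    ext x
    simp [and_comm]
  rw [h2, h3] at h1
  refine ga_ext fun g => ?_
  rw [br_def, coeff_trunc, coeff_avgF, coeff_avgF, h1]
  by_cases h4 : g ∈ K <;> by_cases h5 : g ∈ Subgroup.centralizer (P : Set G) <;> simp [h4, h5]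

end Avg

variable {M : Ideal AlgInt} (hM : IsPModular p M)

theorem sidem_kerSet {H K : Subgroup G} (hKH : K ≤ H) [(K.subgroupOf H).Normal]
    (hK : ¬ p ∣ Nat.card K) : sidem hM H (kerSet (K.subgroupOf H)) = avgF (ResF hM) K := by
  classical
  refine ga_ext fun g => ?_
  have hc : Nat.card (K.subgroupOf H) = Nat.card K :=
    Nat.card_congr (Subgroup.subgroupOfEquivOfLe hKH).toEquiv
  rw [coeff_avgF, sidem]
  by_cases hg : g ∈ H
  · rw [coeff_emb_of_mem H _ hg, coeff_idem, blockCoeff_kerSet, hc]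
    by_cases h : g ∈ K
    · rw [if_pos (Subgroup.mem_subgroupOf.2 h), if_pos h,
        red_inv hM (natCast_mem _ _) (by rwa [natCast_mem_locIdeal_iff]), red_natCast]
    · rw [if_neg (fun h' => h (Subgroup.mem_subgroupOf.1 h')), if_neg h, red_zero]
  · rw [coeff_emb_of_not_mem H _ hg, if_neg fun h => hg (hKH h)]

theorem avgF_mul_sidem_iff {H K : Subgroup G} (hKH : K ≤ H)
    (hH : H ≤ Subgroup.normalizer (K : Set G)) (hK : ¬ p ∣ Nat.card K)
    {b : Set (IrrCharacter H)} (hb : IsPBlock M b) :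
    avgF (ResF hM) K * sidem hM H b = sidem hM H b ↔
      ∀ ξ ∈ b, ∀ h : H, (h : G) ∈ K → ξ.1 h = ξ.1 1 := by
  classical
  have : (K.subgroupOf H).Normal := (Subgroup.normal_subgroupOf_iff_le_normalizer hKH).2 hH
  have hc : ¬ p ∣ Nat.card (K.subgroupOf H) := by
    rwa [Nat.card_congr (Subgroup.subgroupOfEquivOfLe hKH).toEquiv]
  have key : ∀ ξ ∈ b, (avgF (ResF hM) K * sidem hM H b = sidem hM H b ↔
      K.subgroupOf H ≤ ker ξ.1) := by
    intro ξ hξ
    rw [mul_sidem_eq_iff_lam hM hb hξ (cIdem_avgF (p := p) hKH hH hK), ← sidem_kerSet hM hKH hK,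
      sidem, proj_emb, lam_idem_of_isInt hM (isInt_setIdem_kerSet hM _ hc), ← mem_kerSet]
    simp
  constructor
  · intro h ξ hξ x hx
    exact (irr_mem_ker_iff ξ).1 ((key ξ hξ).1 h (Subgroup.mem_subgroupOf.2 hx))
  · intro h
    obtain ⟨ξ, hξ⟩ := block_nonempty hM hb
    exact (key ξ hξ).2 fun x hx => (irr_mem_ker_iff ξ).2 (h ξ hξ x (Subgroup.mem_subgroupOf.1 hx))

section Pairs

variable {R : Type*} [Field R] [CharP R p] {ρ : Set ℕ}

theorem not_dvd_of_isPiNat (hρ : p ∉ ρ) {n : ℕ} (h : IsPiNat ρ n) : ¬ p ∣ n :=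
  fun hd => hρ (h p Fact.out hd)

/-- The normal `ρ`-subgroups of `C(Q)` are in the kernel of `e`. -/
def PiKer (ρ : Set ℕ) (Q : Subgroup G) (e : R[G]) : Prop :=
  ∀ L : Subgroup G, L ≤ Subgroup.centralizer (Q : Set G) →
    Subgroup.centralizer (Q : Set G) ≤ Subgroup.normalizer (L : Set G) →
    IsPiNat ρ (Nat.card L) → avgF R L * e = e

/-- The `ρ`-elements of `C(Q)` form a subgroup in the kernel of `e`. -/
def HallKer (ρ : Set ℕ) (Q : Subgroup G) (e : R[G]) : Prop :=
  ∃ L : Subgroup G, (∀ x, x ∈ L ↔ x ∈ Subgroup.centralizer (Q : Set G) ∧ IsPiNat ρ (orderOf x)) ∧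
    avgF R L * e = e

theorem PiKer.conj {Q : Subgroup G} {e : R[G]} (h : PiKer ρ Q e) (x : G) :
    PiKer ρ (MulAut.conj x • Q) (cj x e) := by
  intro L h1 h2 h3
  rw [← conj_smul_centralizer] at h1 h2
  have h4 := h (MulAut.conj x⁻¹ • L)
    (by simpa only [conj_inv_smul_conj_smul] using conj_smul_mono x⁻¹ h1)
    (by simpa only [conj_inv_smul_conj_smul, conj_smul_normalizer] using conj_smul_mono x⁻¹ h2)
    (by rwa [card_conj_smul])
  have h5 := congrArg (cj x) h4
  rwa [map_mul, cj_avgF, conj_smul_conj_inv_smul] at h5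

theorem PiKer.of_conj {Q : Subgroup G} {e : R[G]} {x : G}
    (h : PiKer ρ (MulAut.conj x • Q) (cj x e)) : PiKer ρ Q e := by
  simpa only [conj_inv_smul_conj_smul, cj_inv_cj] using h.conj x⁻¹

theorem HallKer.conj {Q : Subgroup G} {e : R[G]} (h : HallKer ρ Q e) (x : G) :
    HallKer ρ (MulAut.conj x • Q) (cj x e) := by
  obtain ⟨L, h1, h2⟩ := h
  refine ⟨MulAut.conj x • L, fun y => ?_, by rw [← cj_avgF, ← map_mul, h2]⟩
  rw [← conj_smul_centralizer, mem_conj_smul, mem_conj_smul, h1,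
    orderOf_eq_of_isConj (isConj_iff.2 ⟨x, by group⟩ : IsConj (x⁻¹ * y * x) y)]

/-- The kernel condition for `L ⊓ C(P)`. -/
theorem PiKer.br_avgF_mul {P L : Subgroup G} {e : R[G]} (h : PiKer ρ P e) (hP : IsPGroup p P)
    (hPL : P ≤ Subgroup.normalizer (L : Set G))
    (hC : Subgroup.centralizer (P : Set G) ≤ Subgroup.normalizer (L : Set G))
    (hL : IsPiNat ρ (Nat.card L)) : br P (avgF R L) * e = e := by
  rw [br_avgF hP hPL]
  refine h _ inf_le_right ?_ (hL.of_dvd (Subgroup.card_dvd_of_le inf_le_left))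
  exact (le_inf hC (Subgroup.centralizer_le_normalizer _)).trans
    (normalizer_inf_le_normalizer_inf_centralizer L P)

theorem PiKer.of_nsub (hρ : p ∉ ρ) {P Q : Subgroup G} {e f : R[G]} (hn : NSub p ⊤ Q f P e)
    (h : PiKer ρ P e) : PiKer ρ Q f := by
  intro L h1 h2 h3
  set C := Subgroup.centralizer (Q : Set G) with hC
  set L' := (piCore ρ C).map C.subtype with hL'
  have h4 : IsPiNat ρ (Nat.card L') := isPiNat_card_map_piCore C
  have h5 : Subgroup.normalizer (Q : Set G) ≤ Subgroup.normalizer (L' : Set G) :=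
    (normalizer_le_normalizer_centralizer Q).trans (normalizer_le_normalizer_map_piCore C)
  have h6 : C ≤ Subgroup.normalizer (L' : Set G) :=
    (Subgroup.centralizer_le_normalizer _).trans h5
  refine avgF_mul_of_le (p := p) (le_map_piCore h1 h2 h3) (not_dvd_of_isPiNat hρ h3) ?_
  have h7 := (hn.br_mul_iff (avgF_mul_avgF (p := p) le_rfl (not_dvd_of_isPiNat hρ h4))
    (fun _ _ => trivial) (isFixed_avgF (hn.norm.trans h5))
    (isFixed_avgF (inf_le_right.trans h6))).2
    (h.br_avgF_mul hn.right.pgroup (hn.norm.trans h5)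
      ((Subgroup.centralizer_le (show (Q : Set G) ⊆ P from hn.le)).trans h6) h4)
  rwa [br_eq_self_iff.2 (SuppIn.mono' (Subgroup.map_subtype_le _) (suppIn_avgF _))] at h7

theorem PiKer.of_ple (hρ : p ∉ ρ) {P Q : Subgroup G} {e f : R[G]} (hn : PLe p ⊤ Q f P e)
    (h : PiKer ρ P e) : PiKer ρ Q f := by
  induction hn with
  | refl _ => exact h
  | head h1 _ ih => exact (ih h).of_nsub hρ h1

theorem HallKer.of_nsub (hρ : p ∉ ρ) {P Q : Subgroup G} {e f : R[G]} (hn : NSub p ⊤ Q f P e)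
    (h : HallKer ρ Q f) : HallKer ρ P e := by
  obtain ⟨L, h1, h2⟩ := h
  have h3 : IsPiNat ρ (Nat.card L) := isPiNat_card_subgroup_iff.2 fun g hg => ((h1 g).1 hg).2
  have h4 : Subgroup.normalizer (Q : Set G) ≤ Subgroup.normalizer (L : Set G) := by
    intro x hx
    refine mem_normalizer_of_conj_mem fun y hy => (h1 _).2 ⟨?_, ?_⟩
    · exact conj_mem_centralizer_of_mem_normalizer hx ((h1 y).1 hy).1
    · rw [← orderOf_eq_of_isConj (isConj_iff.2 ⟨x, rfl⟩ : IsConj y (x * y * x⁻¹))]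
      exact ((h1 y).1 hy).2
  have h5 : L ≤ Subgroup.centralizer (Q : Set G) := fun y hy => ((h1 y).1 hy).1
  have h7 := (hn.br_mul_iff (avgF_mul_avgF (p := p) le_rfl (not_dvd_of_isPiNat hρ h3))
    (fun _ _ => trivial) (isFixed_avgF (hn.norm.trans h4))
    (isFixed_avgF (inf_le_right.trans ((Subgroup.centralizer_le_normalizer _).trans h4)))).1
    (by rwa [br_eq_self_iff.2 (SuppIn.mono' h5 (suppIn_avgF _))])
  rw [br_avgF hn.right.pgroup (hn.norm.trans h4)] at h7
  refine ⟨_, fun x => ?_, h7⟩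
  rw [Subgroup.mem_inf, h1]
  exact ⟨fun h => ⟨h.2, h.1.2⟩,
    fun h => ⟨⟨Subgroup.centralizer_le (show (Q : Set G) ⊆ P from hn.le) h.1, h.2⟩, h.1⟩⟩

theorem HallKer.of_ple (hρ : p ∉ ρ) {P Q : Subgroup G} {e f : R[G]} (hn : PLe p ⊤ Q f P e)
    (h : HallKer ρ Q f) : HallKer ρ P e := by
  induction hn with
  | refl _ => exact h
  | head h1 _ ih => exact ih (h.of_nsub hρ h1)

end Pairs

section Corr

variable {ρ : Set ℕ} {B : Set (IrrCharacter G)} {D : Subgroup G}
  {B₁ : Set (IrrCharacter (Subgroup.normalizer (D : Set G)))}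

/-- The idempotent of the Brauer correspondent. -/
theorem sidem_eq_br_of_corr (hD : IsPGroup p D) (hB₁ : IsInducedBlock M _ B₁ B)
    (hB₁D : IsDefectGroup p M B₁ (D.subgroupOf (Subgroup.normalizer (D : Set G)))) :
    br D (idem hM B) = sidem hM _ B₁ := by
  have h1 := (isInducedBlock_iff_br hM hD Subgroup.le_normalizer
    (Subgroup.centralizer_le_normalizer _) le_rfl hB₁.1 hB₁.2.1).1 hB₁
  have h2 := bIdem_sidem hM hB₁.1
  have h3 := (isDefectGroup_subgroupOf_iff_defGrp hM hB₁.1 Subgroup.le_normalizer).1 hB₁D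
  refine (first_main_of_br_mul hM (H := ⊤) le_top (by rwa [top_inf_eq]) (by rwa [top_inf_eq])
    (bIdem_top_idem hM hB₁.2.1) ?_).2
  rw [h1]; exact h2.ne_zero

/-- If `O_ρ(N(D))` is in the kernel of the Brauer correspondent, every `B`-pair satisfies
`PiKer`. -/
theorem piKer_of_corr (hρ : p ∉ ρ) (hBD : IsDefectGroup p M B D) (hB₁ : IsInducedBlock M _ B₁ B)
    (hB₁D : IsDefectGroup p M B₁ (D.subgroupOf (Subgroup.normalizer (D : Set G))))
    (hker : ∀ n ∈ piCore ρ (Subgroup.normalizer (D : Set G)), n ∈ blockKer B₁)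
    {Q : Subgroup G} {f : (ResF hM)[G]} (hf : BP p ⊤ Q f) (hBf : br Q (idem hM B) * f = f) :
    PiKer ρ Q f := by
  have hB := hB₁.2.1
  have hD := isPGroup_of_isDefectGroup hBD
  obtain ⟨e, he, hBe⟩ := DefGrp.exists_maxBP hM (bIdem_top_idem hM hB)
    (defGrp_of_isDefectGroup hM hB hBD)
  obtain ⟨x, -, hx⟩ := he.exists_conj_ple hM (bIdem_top_idem hM hB) hBe hf le_top hBf
  refine PiKer.of_conj (x := x) (PiKer.of_ple hρ hx ?_)
  intro L h1 h2 h3
  set N := Subgroup.normalizer (D : Set G) with hN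
  set C := Subgroup.centralizer (D : Set G) with hC
  have h4 : L ≤ (piCore ρ N).map N.subtype :=
    (le_map_piCore h1 h2 h3).trans (le_map_piCore
      ((Subgroup.map_subtype_le _).trans (Subgroup.centralizer_le_normalizer _))
      ((normalizer_le_normalizer_centralizer D).trans (normalizer_le_normalizer_map_piCore C))
      (isPiNat_card_map_piCore C))
  refine avgF_mul_of_le (p := p) h4 (not_dvd_of_isPiNat hρ h3) ?_
  have h5 := (avgF_mul_sidem_iff hM (Subgroup.map_subtype_le (piCore ρ N))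
    (Subgroup.le_normalizer.trans (normalizer_le_normalizer_map_piCore N))
    (not_dvd_of_isPiNat hρ (isPiNat_card_map_piCore N)) hB₁.1).2
    (fun ξ hξ h hh => hker h (by
      obtain ⟨y, hy, hyh⟩ := hh
      rwa [← Subtype.ext hyh]) ξ hξ)
  rw [← sidem_eq_br_of_corr hM hD hB₁ hB₁D] at h5
  rw [← hBe, ← mul_assoc, h5]

/-- If some `B`-pair satisfies `HallKer`, then `O_ρ(N(D))` is in the kernel of the Brauer
correspondent. -/
theorem ker_corr_of_hallKer (hρ : p ∉ ρ) (hBD : IsDefectGroup p M B D)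
    (hB₁ : IsInducedBlock M _ B₁ B)
    (hB₁D : IsDefectGroup p M B₁ (D.subgroupOf (Subgroup.normalizer (D : Set G))))
    {Q : Subgroup G} {f : (ResF hM)[G]} (hf : BP p ⊤ Q f) (hBf : br Q (idem hM B) * f = f)
    (h : HallKer ρ Q f) :
    ∀ n ∈ piCore ρ (Subgroup.normalizer (D : Set G)), n ∈ blockKer B₁ := by
  have hB := hB₁.2.1
  have hD := isPGroup_of_isDefectGroup hBD
  obtain ⟨e, he, hBe⟩ := DefGrp.exists_maxBP hM (bIdem_top_idem hM hB)
    (defGrp_of_isDefectGroup hM hB hBD)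
  obtain ⟨x, -, hx⟩ := he.exists_conj_ple hM (bIdem_top_idem hM hB) hBe hf le_top hBf
  obtain ⟨L, h1, h2⟩ := (h.conj x).of_ple hρ hx
  set N := Subgroup.normalizer (D : Set G) with hN
  have hK := isPiNat_card_map_piCore (π := ρ) N
  have hKN : N ≤ Subgroup.normalizer (((piCore ρ N).map N.subtype : Subgroup G) : Set G) :=
    Subgroup.le_normalizer.trans (normalizer_le_normalizer_map_piCore N)
  have h3 : (piCore ρ N).map N.subtype ≤ L := by
    intro y hy
    refine (h1 y).2 ⟨?_, isPiNat_card_subgroup_iff.1 hK y hy⟩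
    refine commute_of_normal_of_disjoint' (Subgroup.le_normalizer.trans hKN)
      (Subgroup.map_subtype_le _) ?_ hy
    exact (disjoint_of_isPGroup_of_not_dvd hD (not_dvd_of_isPiNat hρ hK)).symm
  have h4 := avgF_mul_of_le (p := p) h3 (not_dvd_of_isPiNat hρ hK) h2
  rw [sidem_eq_br_of_corr hM hD hB₁ hB₁D] at hBe
  have h5 := ((bIdem_sidem hM hB₁.1).prim _
    (cIdem_avgF (p := p) (Subgroup.map_subtype_le _) hKN (not_dvd_of_isPiNat hρ hK))).resolve_right
    (fun h0 => he.bp.ne_zero (by rw [← h4, ← hBe, ← mul_assoc, h0, zero_mul]))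
  intro n hn ξ hξ
  exact (avgF_mul_sidem_iff hM (Subgroup.map_subtype_le _) hKN (not_dvd_of_isPiNat hρ hK)
    hB₁.1).1 h5 ξ hξ n ⟨n, hn, rfl⟩

end Corr

end BT
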