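import Cfsg.Agent.Lib.Block.QuadBound
import Cfsg.Agent.Lib.Block.StarFam
import Cfsg.Agent.Lib.Block.PairsFus

/-!
# Counting major subsections

`|Z(D)| p^h ≤ e p^d` for the heights `h` of a block with defect group `D` and inertial index `e`.
-/

set_option autoImplicit false
set_option linter.unusedSectionVars false

namespace BT

open Cfsg CT GT
open scoped MonoidAlgebra ComplexConjugate Pointwise

variable {p : ℕ} [Fact p.Prime] {M : Ideal AlgInt} {hM : IsPModular p M}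
variable {G : Type*} [Group G] [Finite G]

variable (hM) in
theorem BIdem.centralizer_of_sup {D : Subgroup G} (hD : IsPGroup p D) {e : (ResF hM)[G]}
    (he : BIdem (D ⊔ Subgroup.centralizer (D : Set G)) e) :
    BIdem (Subgroup.centralizer (D : Set G)) e := by
  have h1 := he.br_eq_self hM le_sup_left
    (sup_le Subgroup.le_normalizer (Subgroup.centralizer_le_normalizer _)) hD
  refine ⟨⟨trunc_eq_self_iff.1 h1, he.fixed.mono le_sup_right, he.idem⟩, he.ne_zero,
    fun f hf => he.prim f ⟨fun g hg => Subgroup.mem_sup_right (hf.supp g hg),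
      IsFixed.sup' (isFixed_of_suppIn_centralizer hf.supp) hf.fixed, hf.idem⟩⟩

variable (hM) in
/-- A block of `D C(D)` inducing to a block with defect group `D` gives a maximal pair. -/
theorem exists_maxP_of_sup {B : Set (IrrCharacter G)} {D : Subgroup G}
    (hD : IsDefectGroup p M B D) {H : Subgroup G} (hH : H = D ⊔ Subgroup.centralizer (D : Set G))
    {b : Set (IrrCharacter H)} (hb : IsInducedBlock M H b B) :
    ∃ m : SPair hM G, MaxP B m ∧ m.Q = D ∧ m.e = sidem hM H b := by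
  subst hH
  have hp := isPGroup_of_isDefectGroup hD
  have he := (bIdem_sidem hM hb.1).centralizer_of_sup hM hp
  have hof := (isInducedBlock_iff_br hM hp le_sup_left le_sup_right
    (sup_le Subgroup.le_normalizer (Subgroup.centralizer_le_normalizer _)) hb.1 hb.2.1).1 hb
  let m : SPair hM G := ⟨D, _, hp, he⟩
  exact ⟨m, ⟨hb.2.1, hof, maxBP_of_defGrp (bIdem_top_idem hM hb.2.1).toCIdem
    (defGrp_of_isDefectGroup hM hb.2.1 hD) m.bp hof⟩, rfl, rfl⟩

theorem contr_self_eq_norm {C : Subgroup G} (u : G) (b : Set (IrrCharacter C)) (θ : G → ℂ) :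
    contr p C u b θ θ = (‖contr p C u b θ θ‖ : ℝ) := by
  haveI := Fintype.ofFinite C
  rw [contr_def, ip_self_eq, Complex.norm_real, Real.norm_of_nonneg (by positivity)]

theorem SPair.map_ctr_at {m : SPair hM G} {u : G} (hu : u ∈ m.Q) {θ η : G → ℂ}
    (hθ : IsGeneralizedCharacter G θ) (hη : IsGeneralizedCharacter G η) {n j : ℕ}
    (hn : u ^ n = 1) (hj : j.Coprime (orderOf u)) (σ : ℂ →+* ℂ)
    (hσ : ∀ ζ : ℂ, ζ ^ n = 1 → σ ζ = ζ ^ j) :
    σ ((m.at u).ctr u θ η) = (m.at (u ^ j)).ctr (u ^ j) θ η := by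
  rw [SPair.at_pow hu hj]
  exact map_contr (centralizer_eq_of_mem_pairsAt (SPair.at_mem hu)) hθ hη hn hj σ hσ

namespace MaxP

variable {B : Set (IrrCharacter G)} {m : SPair hM G} (hm : MaxP B m)
include hm

/-- Fusion of central elements is controlled by the stabilizer of the maximal pair. -/
theorem exists_smul_eq_of_fus_central {u v : G} (h : m.Fus u v) (hu : ∀ x ∈ m.Q, Commute u x)
    (hv : ∀ x ∈ m.Q, Commute v x) : ∃ t : G, t • m = m ∧ t * u * t⁻¹ = v := by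
  obtain ⟨x, rfl, hx⟩ := (SPair.fus_iff_le h.1).1 h
  have hQ := mem_pairsAt.1 (SPair.at_mem h.1)
  have hQ' : MulAut.conj x • (m.at u).Q = Subgroup.zpowers (x * u * x⁻¹) := by
    rw [hQ]
    exact MonoidHom.map_zpowers _ _
  obtain ⟨c, hc, hc'⟩ := hm.max.exists_mul_mem_NP_of_le_centralizer hM
    (Q := (m.at u).Q) (x := x) ⟨Subgroup.mem_top _, _, m.at_le u, hx⟩
    (by rw [hQ, centralizer_zpowers_eq]
        exact fun y hy => Subgroup.mem_centralizer_singleton_iff.2 (hu y hy).symm)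
    (by rw [hQ', centralizer_zpowers_eq]
        exact fun y hy => Subgroup.mem_centralizer_singleton_iff.2 (hv y hy).symm)
  refine ⟨c * x, SPair.smul_eq_self_iff.2 (mem_NP.1 hc').2, ?_⟩
  have h1 := (Subgroup.mem_inf.1 hc).2
  rw [hQ', centralizer_zpowers_eq, Subgroup.mem_centralizer_singleton_iff] at h1
  calc c * x * u * (c * x)⁻¹ = c * (x * u * x⁻¹) * c⁻¹ := by group
    _ = x * u * x⁻¹ := by rw [h1]; group

/-- Brauer: `|Z(D)| p^h ≤ e p^d`. -/
theorem card_center_mul_pow_height_le {T H : Subgroup G} (hT : ∀ t : G, t • m = m → t ∈ T)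
    (hH : H ≤ m.Q ⊔ Subgroup.centralizer (m.Q : Set G)) {χ : IrrCharacter G} (hχ : χ ∈ B) :
    Nat.card (Subgroup.center m.Q) * p ^ blockHeight p B χ.1 ≤
      H.relIndex T * p ^ blockDefect p B := by
  classical
  haveI := Fintype.ofFinite G
  haveI : NeZero (Nat.card G) := ⟨Nat.card_pos.ne'⟩
  have hg := (irr_isCharacter χ).isGen
  set Z : Finset G := Finset.univ.filter fun u => u ∈ m.Q ∧ ∀ x ∈ m.Q, Commute u x with hZ
  have hmZ : ∀ u, u ∈ Z ↔ u ∈ m.Q ∧ ∀ x ∈ m.Q, Commute u x := fun u => by simp [hZ]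
  have hcard : Nat.card (Subgroup.center m.Q) = Z.card := by
    rw [← Nat.card_eq_finsetCard]
    refine Nat.card_congr ⟨fun z => ⟨z.1.1, (hmZ _).2 ⟨z.1.2, fun x hx =>
      congrArg Subtype.val (Subgroup.mem_center_iff.1 z.2 ⟨x, hx⟩).symm⟩⟩,
      fun z => ⟨⟨z.1, ((hmZ _).1 z.2).1⟩, Subgroup.mem_center_iff.2 fun x =>
        Subtype.ext (((hmZ _).1 z.2).2 x.1 x.2).symm⟩, fun _ => rfl, fun _ => rfl⟩
  set c : ℂ := (p : ℂ) ^ blockDefect p B / (p : ℂ) ^ blockHeight p B χ.1 with hc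
  have hp0 : (p : ℂ) ≠ 0 := prime_cast_ne_zero
  let x : G → ℂ := fun u => c * (m.at u).ctr u χ.1 χ.1
  have hint : ∀ u ∈ Z, IsIntegral ℤ (x u) := fun u hu =>
    (cInt_pow_div_mul_contr (centralizer_eq_of_mem_pairsAt (SPair.at_mem ((hmZ u).1 hu).1))
      (isPElt_of_mem_pairsAt (SPair.at_mem ((hmZ u).1 hu).1)) (m.at u).isPBlock_blk
      (pow_card_eq_one' (x := u)) hg hχ hM).isIntegral
  have h0 : ∀ u ∈ Z, x u ≠ 0 := fun u hu =>
    mul_ne_zero (div_ne_zero (pow_ne_zero _ hp0) (pow_ne_zero _ hp0)) fun h =>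
      hm.ssec_ne_zero_of_central ((hmZ u).1 hu).1 ((hmZ u).1 hu).2 hχ (contr_self_eq_zero_iff.1 h)
  obtain ⟨N, hN⟩ : ∃ N : ℤ, ∏ u ∈ Z, x u = N := by
    refine exists_int_of_forall_ringEquiv (IsIntegral.prod _ hint) fun σ => ?_
    obtain ⟨j, hj, hσ⟩ := exists_pow_of_ringEquiv σ (NeZero.ne (Nat.card G))
    have hinj : Function.Injective fun u : G => u ^ j := (powCoprime hj.symm).injective
    have hmaps : ∀ u ∈ Z, u ^ j ∈ Z := fun u hu => (hmZ _).2 ⟨pow_mem ((hmZ u).1 hu).1 j,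
      fun y hy => (((hmZ u).1 hu).2 y hy).pow_left j⟩
    rw [map_prod]
    refine Finset.prod_nbij (fun u => u ^ j) hmaps hinj.injOn ?_ fun u hu => ?_
    · exact Finset.surjOn_of_injOn_of_card_le _ hmaps hinj.injOn le_rfl
    · simp only [x, hc, map_mul, map_div₀, map_pow, map_natCast]
      congr 1
      exact SPair.map_ctr_at ((hmZ u).1 hu).1 hg hg pow_card_eq_one'
        (hj.coprime_dvd_right (orderOf_dvd_natCard u)) (σ : ℂ →+* ℂ) hσ
  have hN0 : N ≠ 0 := by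
    rintro rfl
    obtain ⟨k, hk, hk0⟩ := Finset.prod_eq_zero_iff.1 (hN.trans Int.cast_zero)
    exact h0 k hk hk0
  have h1 : (Z.card : ℝ) ≤ ∑ u ∈ Z, ‖x u‖ :=
    card_le_sum_of_one_le_prod _ _ (fun u hu => norm_pos_iff.2 (h0 u hu)) (by
      rw [← norm_prod, hN, Complex.norm_intCast]
      exact_mod_cast Int.one_le_abs hN0)
  obtain ⟨X, hX, -⟩ := m.exists_reps (fun _ => True) fun u hu => ⟨u, SPair.Fus.refl hu, trivial⟩
  have h2 : ∑ v ∈ X, ‖(m.at v).ctr v χ.1 χ.1‖ = 1 := by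
    have := hm.ip_eq_sum_reps hX (blockPart_irr_of_mem hχ) (irr_isClassFunction χ)
    rw [ip_irr_self] at this
    have h3 : ((∑ v ∈ X, ‖(m.at v).ctr v χ.1 χ.1‖ : ℝ) : ℂ) = 1 := by
      rw [this]
      push_cast
      exact Finset.sum_congr rfl fun v _ => (contr_self_eq_norm _ _ _).symm
    exact_mod_cast h3
  choose! r hr using fun u hu => (hX.2 u hu).exists
  have h3 : ∀ v ∈ X, (Z.filter fun u => r u = v).card ≤ H.relIndex T := by
    intro v _
    rcases (Z.filter fun u => r u = v).eq_empty_or_nonempty with h | ⟨u₀, hu₀⟩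
    · rw [h]; exact Nat.zero_le _
    obtain ⟨hu₀Z, hu₀r⟩ := Finset.mem_filter.1 hu₀
    haveI := Fintype.ofFinite (T ⧸ H.subgroupOf T)
    rw [Subgroup.relIndex, Subgroup.index, Nat.card_eq_fintype_card, ← Finset.card_univ]
    refine Finset.card_le_card_of_surjOn
      (fun q : T ⧸ H.subgroupOf T => (q.out : G) * u₀ * (q.out : G)⁻¹) fun u hu => ?_
    obtain ⟨huZ, hur⟩ := Finset.mem_filter.1 hu
    have hf : m.Fus u₀ u := (hu₀r ▸ (hr u₀ ((hmZ _).1 hu₀Z).1).2 : m.Fus u₀ v).trans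
      (hur ▸ (hr u ((hmZ _).1 huZ).1).2 : m.Fus u v).symm
    obtain ⟨t, ht, htu⟩ := hm.exists_smul_eq_of_fus_central hf ((hmZ _).1 hu₀Z).2 ((hmZ _).1 huZ).2
    obtain ⟨h, hh⟩ := QuotientGroup.mk_out_eq_mul (H.subgroupOf T) ⟨t, hT t ht⟩
    refine ⟨QuotientGroup.mk ⟨t, hT t ht⟩, Finset.mem_coe.2 (Finset.mem_univ _), ?_⟩
    have h4 : m.Q ⊔ Subgroup.centralizer (m.Q : Set G) ≤ Subgroup.centralizer ({u₀} : Set G) :=
      sup_le (fun y hy => Subgroup.mem_centralizer_singleton_iff.2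
        (((hmZ _).1 hu₀Z).2 y hy).symm)
        (Subgroup.centralizer_le (Set.singleton_subset_iff.2 ((hmZ _).1 hu₀Z).1))
    have h5 := Subgroup.mem_centralizer_singleton_iff.1 (h4 (hH h.2))
    simp only [hh, Subgroup.coe_mul]
    calc t * (h.1 : G) * u₀ * (t * (h.1 : G))⁻¹ = t * ((h.1 : G) * u₀) * (h.1 : G)⁻¹ * t⁻¹ := by
          group
      _ = u := by
          rw [show (h.1 : G) * u₀ = u₀ * (h.1 : G) from h5, ← htu]; group
  have h4 : ∑ u ∈ Z, ‖(m.at u).ctr u χ.1 χ.1‖ ≤ H.relIndex T := by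
    rw [← Finset.sum_fiberwise_of_maps_to (g := r) (t := X) fun u hu => (hr u ((hmZ _).1 hu).1).1,
      ← mul_one (H.relIndex T : ℝ), ← h2, Finset.mul_sum]
    refine Finset.sum_le_sum fun v hv => ?_
    rw [Finset.sum_congr rfl (g := fun _ => ‖(m.at v).ctr v χ.1 χ.1‖) fun u hu => by
      obtain ⟨huZ, hur⟩ := Finset.mem_filter.1 hu
      rw [(hur ▸ (hr u ((hmZ _).1 huZ).1).2 : m.Fus u v).ctr_eq (irr_isClassFunction χ)
        (irr_isClassFunction χ)], Finset.sum_const, nsmul_eq_mul]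
    exact mul_le_mul_of_nonneg_right (by exact_mod_cast h3 v hv) (norm_nonneg _)
  simp only [x, norm_mul, ← Finset.mul_sum, hc, norm_div, norm_pow, Complex.norm_natCast] at h1
  have hp1 : (0 : ℝ) < (p : ℝ) ^ blockHeight p B χ.1 :=
    pow_pos (by exact_mod_cast (Fact.out : p.Prime).pos) _
  have h5 := h1.trans (mul_le_mul_of_nonneg_left h4 (by positivity))
  rw [div_mul_eq_mul_div, le_div_iff₀ hp1, mul_comm ((p : ℝ) ^ _)] at h5
  rw [hcard]
  exact_mod_cast h5

end MaxP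

end BT
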