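import Cfsg.Agent.Lib.Block.PairsFus
import Cfsg.Agent.Lib.Block.IBrIdem
import Cfsg.Agent.Lib.Lin.TISylow

/-!
# Blocks of minimal dimension `|G|_p² / |P|` are nilpotent
-/

set_option autoImplicit false
set_option linter.unusedSectionVars false

namespace BT

open Cfsg CT GT
open scoped MonoidAlgebra ComplexConjugate Pointwise

variable {p : ℕ} [Fact p.Prime] {M : Ideal AlgInt} (hM : IsPModular p M)
variable {G : Type*} [Group G] [Finite G]

attribute [local irreducible] instFieldResF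

/-- The two-sided action of `S × S` on `G`. -/
@[reducible] def biAct (S : Subgroup G) : MulAction (S × S) G where
  smul γ x := γ.1 * x * (γ.2 : G)⁻¹
  one_smul x := by change ((1 : S) : G) * x * ((1 : S) : G)⁻¹ = x; simp
  mul_smul a b x := by
    change ((a.1 * b.1 : S) : G) * x * ((a.2 * b.2 : S) : G)⁻¹ = a.1 * (b.1 * x * (b.2 : G)⁻¹) * (a.2 : G)⁻¹
    push_cast; group

/-- The two-sided action of `S × S` on `R[G]`. -/
@[reducible] noncomputable def biActA (R : Type*) [CommRing R] (S : Subgroup G) :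
    DistribMulAction (S × S) R[G] where
  smul γ a := MonoidAlgebra.single (γ.1 : G) 1 * a * MonoidAlgebra.single (γ.2 : G)⁻¹ 1
  one_smul a := by
    change MonoidAlgebra.single ((1 : S) : G) 1 * a * MonoidAlgebra.single ((1 : S) : G)⁻¹ 1 = a
    simp [← MonoidAlgebra.one_def]
  mul_smul a b x := by
    change MonoidAlgebra.single ((a.1 * b.1 : S) : G) 1 * x *
      MonoidAlgebra.single ((a.2 * b.2 : S) : G)⁻¹ 1 = MonoidAlgebra.single (a.1 : G) 1 *
        (MonoidAlgebra.single (b.1 : G) 1 * x * MonoidAlgebra.single (b.2 : G)⁻¹ 1) *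
          MonoidAlgebra.single (a.2 : G)⁻¹ 1
    simp only [← mul_assoc, MonoidAlgebra.single_mul_single, Subgroup.coe_mul, mul_one]
    rw [mul_assoc _ (MonoidAlgebra.single (b.2 : G)⁻¹ 1), MonoidAlgebra.single_mul_single,
      mul_inv_rev, mul_one]
  smul_zero γ := by change _ * 0 * _ = _; simp
  smul_add γ a b := by change _ * (a + b) * _ = _ * a * _ + _ * b * _; rw [mul_add, add_mul]

theorem coeff_single_mul_mul_single {R : Type*} [CommRing R] (s t : G) (a : R[G]) (x : G) :
    (MonoidAlgebra.single s (1 : R) * a * MonoidAlgebra.single t (1 : R)).coeff x =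
      a.coeff (s⁻¹ * x * t⁻¹) := by
  rw [MonoidAlgebra.coeff_mul_single_apply, MonoidAlgebra.coeff_single_mul_apply, one_mul, mul_one,
    mul_assoc]

/-- Elements supported on `S`. -/
def suppSub (R : Type*) [CommRing R] (S : Set G) : Submodule R R[G] where
  carrier := {a | SuppIn S a}
  add_mem' {a b} ha hb g hg := by
    by_contra h
    apply hg
    rw [MonoidAlgebra.coeff_add, Finsupp.add_apply, of_not_not (mt (ha g) h),
      of_not_not (mt (hb g) h), add_zero]
  zero_mem' g hg := absurd rfl hg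
  smul_mem' c a ha g hg := ha g fun h => hg (by
    rw [MonoidAlgebra.coeff_smul, Finsupp.smul_apply, h, smul_zero])

theorem single_mem_suppSub {R : Type*} [CommRing R] {S : Set G} {x : G} (hx : x ∈ S) (c : R) :
    MonoidAlgebra.single x c ∈ suppSub R S := fun g hg => by
  classical
  by_cases h : x = g
  · exact h ▸ hx
  · exact absurd (by simp [Finsupp.single_apply, h]) hg

theorem exists_bifixed {S : Subgroup G} (hS : IsPGroup p S) (I : AddSubgroup (ResF hM)[G])
    (hI : ∀ s ∈ S, ∀ t ∈ S, ∀ a ∈ I,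
      MonoidAlgebra.single s (1 : ResF hM) * a * MonoidAlgebra.single t 1 ∈ I)
    {a : (ResF hM)[G]} (ha : a ∈ I) (h0 : a ≠ 0) :
    ∃ y ∈ I, y ≠ 0 ∧ ∀ s ∈ S, ∀ t ∈ S, ∀ x, y.coeff (s * x * t) = y.coeff x := by
  let _ := biActA (ResF hM) S
  obtain ⟨y, hy, hy0, h⟩ := LG.exists_fixed_ne_zero (P := S × S)
    (fun γ => by
      obtain ⟨j, hj⟩ := hS γ.1
      obtain ⟨k, hk⟩ := hS γ.2
      exact ⟨j + k, Prod.ext (by rw [Prod.pow_fst, pow_add, pow_mul, hj, one_pow]; rfl)
        (by rw [Prod.pow_snd, pow_add, mul_comm, pow_mul, hk, one_pow]; rfl)⟩)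
    (fun a : (ResF hM)[G] => by
      rw [← Nat.cast_smul_eq_nsmul (ResF hM), CharP.cast_eq_zero, zero_smul]) I
    (fun γ a ha => hI _ γ.1.2 _ (S.inv_mem γ.2.2) a ha) ha h0
  refine ⟨y, hy, hy0, fun s hs t ht x => ?_⟩
  have := congrArg (fun z : (ResF hM)[G] => z.coeff x) (h (⟨s⁻¹, S.inv_mem hs⟩, ⟨t, ht⟩))
  rw [← this]
  exact ((coeff_single_mul_mul_single _ _ _ _).trans (by simp)).symm

theorem card_doubleCoset_mul (S : Subgroup G) (g : G) :
    {x | ∃ s ∈ S, ∃ t ∈ S, s * g * t = x}.ncard * Nat.card (S ⊓ MulAut.conj g • S : Subgroup G) =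
      Nat.card S ^ 2 := by
  let _ := biAct S
  have h1 : {x | ∃ s ∈ S, ∃ t ∈ S, s * g * t = x} = MulAction.orbit (S × S) g := by
    ext x
    constructor
    · rintro ⟨s, hs, t, ht, rfl⟩
      exact ⟨(⟨s, hs⟩, ⟨t⁻¹, S.inv_mem ht⟩), by change s * g * t⁻¹⁻¹ = _; rw [inv_inv]⟩
    · rintro ⟨γ, rfl⟩
      exact ⟨γ.1, γ.1.2, _, S.inv_mem γ.2.2, rfl⟩
  have h2 : Nat.card (S ⊓ MulAut.conj g • S : Subgroup G) =
      Nat.card (MulAction.stabilizer (S × S) g) := by
    refine Nat.card_congr ⟨fun s => ⟨(⟨s, s.2.1⟩, ⟨g⁻¹ * s * g, mem_conj_smul.1 s.2.2⟩), ?_⟩,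
      fun γ => ⟨γ.1.1, γ.1.1.2, mem_conj_smul.2 ?_⟩, fun _ => rfl, fun γ => ?_⟩
    · change (s : G) * g * (g⁻¹ * s * g)⁻¹ = g
      group
    · have : (γ.1.1 : G) * g * (γ.1.2 : G)⁻¹ = g := γ.2
      rw [mul_inv_eq_iff_eq_mul] at this
      rw [mul_assoc, this, inv_mul_cancel_left]
      exact γ.1.2.2
    · have : (γ.1.1 : G) * g * (γ.1.2 : G)⁻¹ = g := γ.2
      rw [mul_inv_eq_iff_eq_mul] at this
      refine Subtype.ext (Prod.ext rfl (Subtype.ext ?_))
      change g⁻¹ * γ.1.1 * g = γ.1.2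
      rw [mul_assoc, this, inv_mul_cancel_left]
  rw [h1, h2, ← MulAction.index_stabilizer, Subgroup.index_mul_card, Nat.card_prod, sq]

theorem finrank_span_single_mul_idem {B : Set (IrrCharacter G)} (hB : IsPBlock M B) :
    Module.finrank (ResF hM) (Submodule.span (ResF hM) (Set.range fun x : G =>
      MonoidAlgebra.single x (1 : ResF hM) * idem hM B)) = ∑ χ ∈ bset B, charDegree χ.1 ^ 2 := by
  classical
  have := Fintype.ofFinite G
  let E : Matrix G G ℂ := fun x y => (setIdem B).coeff (x⁻¹ * y)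
  have hE : E * E = E := by
    ext x y
    rw [Matrix.mul_apply]
    conv_rhs => simp only [E]; rw [← Set.inter_self B, ← setIdem_mul, coeff_mul_eq_sum]
    rw [← Equiv.sum_comp (Equiv.mulLeft x)]
    simp [E, mul_assoc]
  have h1 := rank_map_red_of_idem hM (fun x y => isInt_setIdem hM hB _) hE
  have h2 : E.rank = ∑ χ ∈ bset B, charDegree χ.1 ^ 2 := by
    have hG : (Nat.card G : ℂ) ≠ 0 := by exact_mod_cast Nat.card_pos.ne'
    have h3 : E.trace = ∑ χ ∈ bset B, (charDegree χ.1 : ℂ) ^ 2 := by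
      simp only [Matrix.trace, Matrix.diag, E, inv_mul_cancel, Finset.sum_const, Finset.card_univ,
        nsmul_eq_mul, coeff_setIdem, blockCoeff_eq_sum_bset, ← Nat.card_eq_fintype_card,
        mul_inv_cancel_left₀ hG, irr_apply_one, map_natCast, ← sq]
    rw [trace_eq_rank_of_idem hE] at h3
    exact_mod_cast h3
  let L : (ResF hM)[G] ≃ₗ[ResF hM] (G → ResF hM) :=
    (MonoidAlgebra.coeffLinearEquiv (ResF hM)).trans (Finsupp.linearEquivFunOnFinite _ _ _)
  rw [← h2, ← h1, Matrix.rank_eq_finrank_span_row, ← LinearEquiv.finrank_map_eq L,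
    Submodule.map_span, ← Set.range_comp]
  have h4 : (⇑(L : (ResF hM)[G] →ₗ[ResF hM] (G → ResF hM)) ∘ fun x : G =>
      MonoidAlgebra.single x (1 : ResF hM) * idem hM B) = (E.map (red hM)).row := by
    funext x y
    change (MonoidAlgebra.single x (1 : ResF hM) * idem hM B).coeff y = red hM (E x y)
    rw [MonoidAlgebra.coeff_single_mul_apply, one_mul, coeff_idem, ← coeff_setIdem]
  rw [h4]

include hM in
theorem nilpotent_of_min_dim {B : Set (IrrCharacter G)} (hB : IsPBlock M B)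
    (h : (∑ χ ∈ bset B, charDegree χ.1 ^ 2) * p ^ blockDefect p B ≤
      (p ^ (Nat.card G).factorization p) ^ 2) : IsNilpotentBlock p M B := by
  classical
  have := Fintype.ofFinite G
  rw [isNilpotentBlock_iff hM hB]
  intro Q f hf _ hbf x hx hreg
  have hb := bIdem_top_idem hM hB
  have hbc := isCentral_iff_commute.1 (isCentral_iff_isFixed_top.2 hb.fixed)
  obtain ⟨P, hP⟩ := hb.exists_defGrp hM
  have hPc := card_defectGroup hM hB ((isDefectGroup_iff_defGrp hM hB _).2 hP)
  obtain ⟨S₀, hQS⟩ := hf.pgroup.exists_le_sylow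
  set S : Subgroup G := S₀.toSubgroup
  have hS : IsPGroup p S := S₀.isPGroup'
  rw [← hPc, ← S₀.card_eq_multiplicity] at h
  set b := idem hM B
  have hcomm : ∀ (s t : G) (a : (ResF hM)[G]), MonoidAlgebra.single s 1 * a *
      MonoidAlgebra.single t 1 * b = MonoidAlgebra.single s 1 * (a * b) *
        MonoidAlgebra.single t 1 := fun s t a => by
    rw [mul_assoc _ _ b, ← (hbc _).eq]; simp only [mul_assoc]
  -- a fixed vector and a double coset
  obtain ⟨y, hy, hy0, hyf⟩ := exists_bifixed hM hS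
    (AddMonoidHom.eqLocus (AddMonoidHom.mulRight b) (AddMonoidHom.id _))
    (fun s _ t _ a ha => by
      change _ * b = _
      rw [hcomm, show a * b = a from ha]; rfl) (a := b) hb.idem hb.ne_zero
  replace hy : y * b = y := hy
  let D : G → Set G := fun g => {x | ∃ s ∈ S, ∃ t ∈ S, s * g * t = x}
  have hDself : ∀ g, g ∈ D g := fun g => ⟨1, S.one_mem, 1, S.one_mem, by simp⟩
  have hDmul : ∀ g, ∀ s ∈ S, ∀ t ∈ S, ∀ x ∈ D g, s * x * t ∈ D g := by
    rintro g s hs t ht _ ⟨s', hs', t', ht', rfl⟩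
    exact ⟨s * s', S.mul_mem hs hs', t' * t, S.mul_mem ht' ht, by group⟩
  have hD : ∀ g x, x ∈ D g ↔ D x = D g := fun g x => by
    refine ⟨fun hx => Set.Subset.antisymm ?_ ?_, fun h => h ▸ hDself x⟩
    · rintro _ ⟨s, hs, t, ht, rfl⟩
      exact hDmul g s hs t ht x hx
    · obtain ⟨s', hs', t', ht', rfl⟩ := hx
      rintro _ ⟨s, hs, t, ht, rfl⟩
      exact ⟨s * s'⁻¹, S.mul_mem hs (S.inv_mem hs'), t'⁻¹ * t, S.mul_mem (S.inv_mem ht') ht,
        by group⟩
  obtain ⟨g, hg, hgb⟩ : ∃ g, y.coeff g ≠ 0 ∧ trunc (D g) y * b ≠ 0 := by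
    by_contra! hne
    apply hy0
    have h1 : y = ∑ A ∈ Finset.univ.image D, trunc A y := by
      refine ga_ext fun x => ?_
      rw [coeff_sum_apply, Finset.sum_eq_single (D x), coeff_trunc_of_mem _ (hDself x)]
      · intro A hA hne
        obtain ⟨g, -, rfl⟩ := Finset.mem_image.1 hA
        exact coeff_trunc_of_not_mem _ fun h => hne ((hD g x).1 h).symm
      · exact fun h => absurd (Finset.mem_image_of_mem _ (Finset.mem_univ x)) h
    rw [← hy, h1, Finset.sum_mul]
    refine Finset.sum_eq_zero fun A hA => ?_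
    obtain ⟨g, -, rfl⟩ := Finset.mem_image.1 hA
    by_cases h0 : y.coeff g = 0
    · rw [trunc_eq_zero_iff.2, zero_mul]
      rintro _ ⟨s, hs, t, ht, rfl⟩
      rw [hyf s hs t ht, h0]
    · exact hne g h0
  set T : Subgroup G := S ⊓ MulAut.conj g • S
  have hT : IsPGroup p T := hS.to_le inf_le_left
  have hTb : br T b ≠ 0 := by
    intro h0
    have h1 : IsFixed T (y * MonoidAlgebra.single g⁻¹ 1) := fun s hs z => by
      simp only [MonoidAlgebra.coeff_mul_single_apply, inv_inv, mul_one]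
      rw [← hyf s hs.1 _ (S.inv_mem (mem_conj_smul.1 hs.2)) (z * g)]
      congr 1
      group
    have h2 := br_mul hT h1 (hb.fixed.mono le_top)
    rw [h0, mul_zero, mul_assoc, ← (hbc _).eq, ← mul_assoc, hy, br_eq_zero_iff] at h2
    have := h2 1 (one_mem _)
    simp only [MonoidAlgebra.coeff_mul_single_apply, inv_inv, mul_one, one_mul] at this
    exact hg this
  have hTP := hP.card_le le_top hT hTb
  -- injectivity on the double coset
  have hinj : ∀ a : (ResF hM)[G], SuppIn (D g) a → a * b = 0 → a = 0 := by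
    intro a ha hab
    by_contra h0
    obtain ⟨w, ⟨hw, hwb⟩, hw0, hwf⟩ := exists_bifixed hM hS
      { carrier := {a | SuppIn (D g) a ∧ a * b = 0}
        add_mem' := fun ha hb => ⟨(suppSub _ _).add_mem ha.1 hb.1, by rw [add_mul, ha.2, hb.2, add_zero]⟩
        zero_mem' := ⟨(suppSub _ _).zero_mem, zero_mul _⟩
        neg_mem' := fun ha => ⟨(suppSub _ _).neg_mem ha.1, by rw [neg_mul, ha.2, neg_zero]⟩ }
      (fun s hs t ht a ha => ⟨fun z hz => by
        rw [coeff_single_mul_mul_single] at hz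
        simpa [mul_assoc] using hDmul g s hs t ht _ (ha.1 _ hz),
        by rw [hcomm, ha.2, mul_zero, zero_mul]⟩) ⟨ha, hab⟩ h0
    have h1 : w.coeff g • trunc (D g) y = y.coeff g • w := by
      refine ga_ext fun z => ?_
      simp only [MonoidAlgebra.coeff_smul, Finsupp.smul_apply, smul_eq_mul]
      by_cases hz : z ∈ D g
      · rw [coeff_trunc_of_mem _ hz]
        obtain ⟨s, hs, t, ht, rfl⟩ := hz
        rw [hyf s hs t ht, hwf s hs t ht, mul_comm]
      · rw [coeff_trunc_of_not_mem _ hz, of_not_not (mt (hw z) hz), mul_zero, mul_zero]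
    have h2 := congrArg (· * b) h1
    simp only [smul_mul_assoc, hwb, smul_zero, smul_eq_zero, hgb, or_false] at h2
    apply hw0
    refine ga_ext fun z => ?_
    by_contra hz
    obtain ⟨s, hs, t, ht, rfl⟩ := hw z hz
    exact hz (by rw [hwf s hs t ht, h2]; rfl)
  have hli : LinearIndependent (ResF hM) fun z : D g =>
      MonoidAlgebra.single (z : G) (1 : ResF hM) * b := by
    rw [Fintype.linearIndependent_iff]
    intro c hc z
    have h1 := hinj (∑ z : D g, c z • MonoidAlgebra.single (z : G) (1 : ResF hM))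
      ((suppSub _ _).sum_mem fun z _ => (suppSub _ _).smul_mem _ (single_mem_suppSub z.2 _))
      (by rw [Finset.sum_mul]; simpa only [smul_mul_assoc] using hc)
    have h2 := congrArg (fun a : (ResF hM)[G] => a.coeff z) h1
    simpa [coeff_sum_apply, Finsupp.single_apply, Subtype.val_inj] using h2
  have hcard := card_doubleCoset_mul S g
  have hspan : Submodule.span (ResF hM) (Set.range fun z : D g =>
      MonoidAlgebra.single (z : G) (1 : ResF hM) * b) = Submodule.span (ResF hM)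
        (Set.range fun z : G => MonoidAlgebra.single z (1 : ResF hM) * b) := by
    refine Submodule.eq_of_le_of_finrank_le (Submodule.span_mono ?_) ?_
    · rintro _ ⟨z, rfl⟩
      exact ⟨z, rfl⟩
    · rw [finrank_span_eq_card hli, finrank_span_single_mul_idem hM hB, ← Nat.card_eq_fintype_card]
      refine Nat.le_of_mul_le_mul_right (h.trans ?_) (Nat.card_pos (α := P))
      rw [← hcard]
      exact Nat.mul_le_mul_left _ hTP
  have key : ∀ R : Subgroup G, IsPGroup p R → br R b ≠ 0 → R ≤ S → ∀ x : G,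
      (∀ u ∈ R, x * u * x⁻¹ ∈ S) → ∃ c ∈ Subgroup.centralizer (R : Set G), x * c ∈ D g := by
    intro R hR hRb hRS x hx
    have h1 : MonoidAlgebra.single x (1 : ResF hM) * b ∈ _ :=
      hspan.ge (Submodule.subset_span ⟨x, rfl⟩)
    obtain ⟨c, hc⟩ := (Submodule.mem_span_range_iff_exists_fun _).1 h1
    set a := ∑ z : D g, c z • MonoidAlgebra.single (z : G) (1 : ResF hM)
    have ha : SuppIn (D g) a :=
      (suppSub _ _).sum_mem fun z _ => (suppSub _ _).smul_mem _ (single_mem_suppSub z.2 _)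
    have hab : a * b = MonoidAlgebra.single x 1 * b := by
      rw [Finset.sum_mul]; simpa only [smul_mul_assoc] using hc
    have h2 : IsFixed R (MonoidAlgebra.single x⁻¹ 1 * a) := fun u hu z => by
      have h3 := hinj (MonoidAlgebra.single (x * u * x⁻¹)⁻¹ 1 * a * MonoidAlgebra.single u 1 - a)
        ((suppSub _ _).sub_mem (fun z hz => by
          rw [coeff_single_mul_mul_single] at hz
          simpa [mul_assoc] using hDmul g _ (S.inv_mem (hx u hu)) u (hRS hu) _ (ha _ hz)) ha)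
        (by
          rw [sub_mul, hcomm, hab, ← hcomm, MonoidAlgebra.single_mul_single,
            MonoidAlgebra.single_mul_single, sub_eq_zero]
          congr 2
          · group
          · simp)
      have h4 := congrArg (fun a : (ResF hM)[G] => a.coeff (x * z)) (sub_eq_zero.1 h3)
      simp only [coeff_single_mul_mul_single] at h4
      simp only [MonoidAlgebra.coeff_single_mul_apply, inv_inv, one_mul, ← h4]
      congr 1
      group
    have h3 := br_mul hR h2 (hb.fixed.mono le_top)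
    rw [mul_assoc, hab, ← mul_assoc, MonoidAlgebra.single_mul_single, inv_mul_cancel, mul_one,
      ← MonoidAlgebra.one_def, one_mul] at h3
    obtain ⟨c, hc, h4⟩ := br_ne_zero_iff.1 (left_ne_zero_of_mul (h3 ▸ hRb))
    simp only [MonoidAlgebra.coeff_single_mul_apply, inv_inv, one_mul] at h4
    exact ⟨c, hc, ha _ h4⟩
  obtain ⟨h₀, hh₀, hh₀D⟩ := key T hT hTb inf_le_left 1 fun u hu => by simpa using hu.1
  rw [one_mul] at hh₀D
  have hT' : T = S ⊓ MulAut.conj h₀ • S := by
    refine Subgroup.eq_of_le_of_card_ge (fun s hs => ⟨hs.1, mem_conj_smul.2 ?_⟩) (le_of_eq ?_)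
    · rw [mul_assoc, hh₀ s hs, inv_mul_cancel_left]; exact hs.1
    · have h1 := card_doubleCoset_mul S h₀
      rw [show {x | ∃ s ∈ S, ∃ t ∈ S, s * h₀ * t = x} = D g from (hD g h₀).1 hh₀D, ← hcard] at h1
      exact Nat.eq_of_mul_eq_mul_left ((Set.ncard_pos (Set.toFinite _)).2 ⟨g, hDself g⟩) h1
  have hxQ := (mem_NP.1 hx).2.1
  obtain ⟨c, hc, h1⟩ := key Q hf.pgroup (left_ne_zero_of_mul (hbf.symm ▸ hf.ne_zero)) hQS x
    fun u hu => hQS ((Subgroup.mem_normalizer_iff.1 hxQ u).1 hu)
  rw [← (hD g h₀).1 hh₀D] at h1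
  obtain ⟨s, hs, t, ht, h1⟩ := h1
  refine mem_centralizer_of_conj_eq_of_isPElt hreg (isPElt_of_mem hS (S.mul_mem hs ht)) hxQ
    fun u hu => ?_
  have h2 : x * u * x⁻¹ = s * (h₀ * (t * u * t⁻¹) * h₀⁻¹) * s⁻¹ := by
    calc x * u * x⁻¹ = x * (u * c) * (x * c)⁻¹ := by group
      _ = (x * c) * u * (x * c)⁻¹ := by rw [hc u hu]; group
      _ = _ := by rw [← h1]; group
  have h3 : h₀ * (t * u * t⁻¹) * h₀⁻¹ ∈ T := by
    rw [hT']
    refine ⟨?_, conj_mem_conj_smul.2 (S.mul_mem (S.mul_mem ht (hQS hu)) (S.inv_mem ht))⟩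
    have h4 := hQS ((Subgroup.mem_normalizer_iff.1 hxQ u).1 hu)
    rw [h2] at h4
    simpa [mul_assoc] using S.mul_mem (S.mul_mem (S.inv_mem hs) h4) hs
  have h4 := hh₀ _ h3
  rw [inv_mul_cancel_right, mul_right_inj] at h4
  rw [h2, ← h4]
  group

end BT
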