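import Cfsg.Agent.Lib.Block.OneBlau

/-!
# Weights of Green correspondents and the real stem
-/

set_option autoImplicit false
set_option linter.unusedSectionVars false

namespace BT.Lat

open Cfsg CT Module
open scoped ComplexConjugate

section lin

variable {k : Type} [Field k] {V : Type*} [AddCommGroup V] [Module k V]

theorem neg_dualMap_pow (x : End k V) (i : ℕ) : ∀ (f : Dual k V) (v : V),
    ((-x.dualMap : End k (Dual k V)) ^ i) f v = (-1) ^ i * f ((x ^ i) v) := by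
  induction i with
  | zero => simp
  | succ i ih => intro f v; simp [pow_succ, ih, ← End.mul_apply x, ← pow_succ']

theorem GJ.exists_dual {x h h' : End k V} {α : k} {S : Type} [Finite S] {l : S → ℕ} {m : S → V}
    {w : S → k} {B : Basis (Σ s, Fin (l s)) k V} (J : GJ x h l m w B) (hx : h * x = α • (x * h))
    (hh : h' * h = 1) : ∃ m' B', GJ (-x.dualMap) h'.dualMap l m'
      (fun a => (α ^ (l a - 1) * w a)⁻¹) B' := by
  classical
  have key : ∀ (c : Σ s, Fin (l s)) a (j : ℕ), B.coord c ((x ^ j) (m a)) =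
      if a = c.1 ∧ j = c.2 then 1 else 0 := fun c a j => by
    by_cases hj : j < l a
    · rw [J.pow_eq hj, Basis.coord_apply, B.repr_self, Finsupp.single_apply]
      refine if_congr ⟨fun h => h ▸ ⟨rfl, rfl⟩, ?_⟩ rfl rfl
      rintro ⟨rfl, rfl⟩
      rfl
    · rw [J.pow_eq_zero (not_lt.1 hj), map_zero, if_neg]
      rintro ⟨rfl, rfl⟩
      exact hj c.2.2
  have h1 := fun a => Nat.sub_one_lt (J.pos a).ne'
  refine ⟨fun a => B.coord ⟨a, l a - 1, h1 a⟩, (B.dualBasis.reindex (Equiv.sigmaCongrRight fun a =>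
    Fin.revPerm)).unitsSMul fun c => (-1) ^ (c.2 : ℕ), fun c => J.ext fun a j => ?_,
    fun a => J.ext fun a' j => ?_, J.pos, fun a => J.ext fun a' j => ?_⟩
  · rw [neg_dualMap_pow, ← End.mul_apply, ← pow_add, key, Basis.unitsSMul_apply,
      Basis.reindex_apply, Basis.coe_dualBasis, LinearMap.smul_apply, key, Units.smul_def]
    have := c.2.2
    simp only [Units.val_pow_eq_pow_val, Units.val_neg, Units.val_one, smul_eq_mul]
    congr 1
    refine if_congr (and_congr Iff.rfl ?_) rfl rfl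
    change j = l c.1 - (c.2 + 1) ↔ _
    omega
  · have := h1 a
    rw [neg_dualMap_pow, ← End.mul_apply, ← pow_add, key, if_neg (by simp only; omega), mul_zero,
      LinearMap.zero_apply]
  · have h2 := apply_pow_of_wt hx (J.wt a') j
    have h3 : h' ((x ^ j) (m a')) = (α ^ j * w a')⁻¹ • (x ^ j) (m a') := by
      have h3 := congrArg h' h2
      rw [← End.mul_apply, hh, End.one_apply, map_smul] at h3
      by_cases h0 : α ^ j * w a' = 0
      · rw [h3, h0]; simp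
      · conv_rhs => rw [h3, inv_smul_smul₀ h0]
    rw [LinearMap.dualMap_apply, h3, map_smul, LinearMap.smul_apply, key]
    split_ifs with h4
    · obtain ⟨rfl, rfl⟩ := h4
      rfl
    · simp

theorem le_card_wt [DecidableEq k] {α w b : k} {e : ℕ} (hα : IsPrimitiveRoot α e) (he : 0 < e)
    (hw : w ^ e = 1) (hb : b ^ e = 1) {d q L : ℕ} (hL : L = d + e * q) :
    q ≤ ((Finset.range L).filter fun i => L ≤ i + e * q ∧ w * α ^ i = b).card := by
  subst hL
  have : NeZero e := ⟨he.ne'⟩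
  have h0 : w * α ^ d ≠ 0 := mul_ne_zero (by rintro rfl; simp [he.ne'] at hw)
    (pow_ne_zero _ (hα.ne_zero he.ne'))
  obtain ⟨r, hr, h⟩ := hα.eq_pow_of_pow_eq_one (ξ := (w * α ^ d)⁻¹ * b) (by
    rw [mul_pow, hb, inv_pow, mul_pow, hw, pow_right_comm, hα.pow_eq_one]; simp)
  refine (Finset.card_range q).ge.trans (Finset.card_le_card_of_injOn (fun j => d + r + e * j)
    (fun j hj => ?_) fun j _ j' _ h => by simpa [he.ne'] using h)
  have := Nat.mul_le_mul_left e (Nat.succ_le_of_lt (Finset.mem_range.1 hj))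
  rw [Nat.mul_succ] at this
  dsimp only
  refine Finset.mem_filter.2 ⟨Finset.mem_range.2 (by omega), by omega, ?_⟩
  rw [pow_add, pow_mul, hα.pow_eq_one, one_pow, mul_one, pow_add, ← mul_assoc, h,
    mul_inv_cancel_left₀ h0]

end lin

variable {p : ℕ} [hp : Fact p.Prime] {k : Type} [Field k] [CharP k p]
variable {G : Type*} [Group G] [Finite G]

open Multiplicative

local notation "Zp" => Multiplicative (ZMod p)

theorem xop_dual {V : Type*} [AddCommGroup V] [Module k V] (ι : Zp →* G)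
    (σ : Representation k G V) : xop ι σ.dual = -(xop ι σ).dualMap := by
  ext f v
  rw [xop_eq, xop_eq, ← Equiv.sum_comp (Equiv.neg (ZMod p))]
  simp [LinearMap.sum_apply, Representation.dual_apply, inv_neg, Dual.transpose_apply,
    -ZMod.castHom_apply]

/-- `b` is the weight of the nonprojective block of a reduction of `χ`. -/
def Wt (ι : Zp →* G) (h : G) (R : Red k) (χ : G → ℂ) (c d : ℕ) (b : k) : Prop :=
  ∃ (V : Type) (_ : AddCommGroup V) (_ : Module k V) (σ : Representation k G V) (S : Type)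
    (_ : Fintype S) (l : S → ℕ) (m : S → V) (w : S → k) (B : Basis (Σ s, Fin (l s)) k V) (a₀ : S),
    R.IsRed χ σ ∧ GJ (xop ι σ) (σ h) l m w B ∧ l a₀ = d ∧ (∀ a ≠ a₀, l a = p) ∧
      Fintype.card S = c + 1 ∧ w a₀ = b

variable {ι : Multiplicative (ZMod p) →* G}

local notation "e" => Nat.card (autN ι)

namespace Gen

variable {h : G} {s : ZMod p} (Γ : Gen ι h s) {R : Red k}
include Γ

theorem wt_dual {χ : G → ℂ} {c : ℕ} {b : k} (W : Wt ι h R χ c 1 b) :
    Wt ι h R (cbar χ) c 1 b⁻¹ := by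
  obtain ⟨V, _, _, σ, S, _, l, m, w, B, a₀, h1, J, h2, h3, h4, rfl⟩ := W
  obtain ⟨m', B', J'⟩ := J.exists_dual (Γ.mul_xop σ) (h' := σ h⁻¹) (by simp [← map_mul])
  rw [← xop_dual] at J'
  exact ⟨_, _, _, σ.dual, S, _, l, m', _, B', a₀, h1.dual, J', h2, h3, h4, by simp [h2]⟩

omit Γ in
theorem wt_pow (he : h ^ e = 1) {χ : G → ℂ} {c d : ℕ} {b : k} (W : Wt ι h R χ c d b) :
    b ^ e = 1 := by
  obtain ⟨V, _, _, σ, S, _, l, m, w, B, a₀, -, J, -, -, -, rfl⟩ := W
  exact wt_pow_eq_one (by rw [← map_pow, he, map_one]) (J.wt _) (J.pow_ne_zero (J.pos _))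

theorem wt_ne_wt [IsAlgClosed k] [Fintype Zp] (hc : cenReg p ι = ⊥) {θ φ : G → ℂ} {c c' d : ℕ}
    {b b' : k} (W : Wt ι h R θ c 1 b) (W' : Wt ι h R φ c' d b') (hd : e ∣ d - 1) (hd' : d < p)
    (hθ : ∀ u ≠ 1, θ (ι u) = 1) (hφ : ∑ u, φ (ι u) = p * (c' + 1)) (h0 : ip θ φ = 0) : b ≠ b' := by
  classical
  rintro rfl
  have he : h ^ e = 1 := Subgroup.mem_bot.1 (hc ▸ Γ.pow_mem_cenReg dvd_rfl)
  have hb := wt_pow he W
  obtain ⟨V, _, _, τ, S, _, l, m, w, B, a₀, h1, J, h2, h3, h4, h5⟩ := W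
  obtain ⟨V', _, _, σ, S', _, l', m', w', B', a₀', h1', J', rfl, h3', h4', h5'⟩ := W'
  have := h1.finite
  have h6 : finrank k V = c * p + 1 := by
    rw [J.finrank_eq, Fintype.sum_eq_add_sum_compl a₀, h2, Finset.sum_congr rfl fun a ha =>
      h3 a (by simpa using ha), Finset.sum_const, Finset.card_compl, h4, add_comm]
    simp
  have h6' : finrank k V' = c' * p + l' a₀' := by
    rw [J'.finrank_eq, Fintype.sum_eq_add_sum_compl a₀', Finset.sum_congr rfl fun a ha =>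
      h3' a (by simpa using ha), Finset.sum_const, Finset.card_compl, h4', add_comm]
    simp
  have h7 := Γ.blau h1' h1 (hc ▸ bot_le) J' (n := 0) (f := c * (c' * p + l' a₀') + (c' + 1))
    (fun a => by
      by_cases ha : a = a₀'
      · exact ha ▸ hd
      · exact h3' a ha ▸ Γ.syl.card_autN_dvd)
    (by rw [ip_mul_left, Nat.cast_zero, ← h0]; congr 1; ext; simp) (by
      rw [Finset.sum_congr rfl (g := fun u => conj (φ (ι u)) + if u = 1 then c * p * conj (φ 1) else 0)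
        fun u _ => ?_, Finset.sum_add_distrib, ← map_sum, hφ, Finset.sum_ite_eq', if_pos (by simp),
        h1'.isCharacter.apply_one, ← h1'.finrank_eq, h6']
      · simp only [map_mul, map_add, map_natCast, map_one]
        push_cast
        ring
      · split_ifs with hu
        · rw [hu, map_one, Pi.mul_apply, h1.isCharacter.apply_one, ← h1.finrank_eq, h6, cbar_apply]
          push_cast
          ring
        · rw [Pi.mul_apply, hθ u hu, one_mul, add_zero, cbar_apply])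
  have h9 := J'.pos a₀'
  obtain ⟨q, hq⟩ : e ∣ p - l' a₀' := (show p - l' a₀' = p - 1 - (l' a₀' - 1) by omega) ▸
    Nat.dvd_sub Γ.syl.card_autN_dvd hd
  have h10 := le_trans (Finset.sum_le_sum (f := fun a => if a = a₀ then 1 else q) fun a _ => ?_)
    (Γ.card_le_ker J (j := p - l' a₀') ⟨q, hq⟩ b)
  on_goal 2 =>
    split_ifs with ha
    · exact Finset.card_pos.2 ⟨0, by simp [ha, h2, h5, Nat.succ_le_iff, hd']⟩
    · rw [h3 a ha, hq]
      exact le_card_wt Γ.prim Γ.syl.card_autN_pos (wt_pow_eq_one (by rw [← map_pow, he, map_one])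
        (J.wt _) (J.pow_ne_zero (J.pos _))) hb (d := l' a₀') (by omega)
  rw [Fintype.sum_eq_add_sum_compl a₀, if_pos rfl, Finset.sum_congr rfl fun a ha =>
    if_neg (by simpa using ha), Finset.sum_const, Finset.card_compl, h4, ← h5'] at h10
  have h11 := Nat.mul_le_mul_left e (h10.trans (Finset.single_le_sum (f := fun a => finrank k
    ↥(LinearMap.ker (xop ι τ ^ (p - l' a)) ⊓ End.eigenspace (τ h) (w' a))) (fun _ _ => Nat.zero_le _)
    (Finset.mem_univ a₀')))
  rw [h4', h6] at h7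
  have h12 := Γ.syl.card_autN_pos
  have h13 : p = l' a₀' + e * q := by omega
  simp only [Finset.card_singleton, Nat.add_sub_cancel, smul_eq_mul] at h11
  nlinarith

end Gen

/-- Real characters of positive sign occupy two weights each. -/
theorem _root_.BT.PB.stem {X : Finset (IrrCharacter G)} {Y : HatNe Zp → IrrCharacter G}
    {δ : IrrCharacter G → ℤ} {δ₀ : ℤ} (T : PB p ι X Y δ δ₀) (hc : cenReg p ι = ⊥)
    {U : Finset (IrrCharacter G)} (hU : ∀ χ ∈ U, χ ∈ X ∧ δ χ = 1 ∧ cbar χ.1 = χ.1)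
    {φ : IrrCharacter G} (hφ : φ ∉ U) (h : φ ∈ X ∧ δ φ = 1 ∨ δ₀ = 1 ∧ ∃ l, Y l = φ) :
    U.card ≤ e / 2 := by
  classical
  have := Fintype.ofFinite Zp
  obtain ⟨k, _, _, _, ⟨R⟩⟩ := exists_red hp.out
  obtain ⟨g, s, Γ⟩ := exists_gen T.syl (hc ▸ bot_le)
  have h2 := hp.out.two_le
  have he := Γ.syl.card_autN_pos
  have he' := Nat.le_of_dvd (by omega) Γ.syl.card_autN_dvd
  have hg : g ^ e = 1 := Subgroup.mem_bot.1 (hc ▸ Γ.pow_mem_cenReg dvd_rfl)
  have key : ∀ (χ : IrrCharacter G) (c d : ℕ), charDegree χ.1 = c * p + d → 0 < d → d < p →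
      ∃ b, Wt ι g R χ.1 c d b := fun χ c d h1 h2 h3 => by
    obtain ⟨n, σ, S, _, l, m, w, B, a, h4, h5, h6, h7, h8⟩ := Γ.exists_model R χ h1 h2 h3
    exact ⟨_, _, _, _, σ, S, _, l, m, w, B, a, h4, h5, h6, h7, h8, rfl⟩
  have h3 : ∀ χ : IrrCharacter G, ∃ b c d, (χ ∈ X ∧ δ χ = 1 ∨ δ₀ = 1 ∧ ∃ l, Y l = χ) →
      Wt ι g R χ.1 c d b ∧ e ∣ d - 1 ∧ d < p ∧ ∑ u, χ.1 (ι u) = p * (c + 1) ∧ (χ ∈ X → d = 1) :=
    fun χ => by
      have h0 := irr_degree_pos χ
      by_cases h1 : χ ∈ X ∧ δ χ = 1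
      · obtain ⟨f, hf⟩ := T.exists_fix_X h1.1
        rw [h1.2] at hf
        obtain ⟨c, rfl⟩ : ∃ c, f = c + 1 := Nat.exists_eq_succ_of_ne_zero (by rintro rfl; omega)
        obtain ⟨b, hb⟩ := key χ c 1 (by push_cast at hf; linarith) one_pos h2
        exact ⟨b, c, 1, fun _ => ⟨hb, by simp, h2, by
          rw [T.sum_X h1.1, h1.2]; exact_mod_cast hf, fun _ => rfl⟩⟩
      by_cases h4 : δ₀ = 1 ∧ ∃ l, Y l = χ
      · obtain ⟨rfl, l, rfl⟩ := h4
        obtain ⟨f, hf⟩ := T.exists_fix_Y l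
        obtain ⟨c, rfl⟩ : ∃ c, f = c + 1 := Nat.exists_eq_succ_of_ne_zero (by rintro rfl; omega)
        obtain ⟨b, hb⟩ := key (Y l) c (p - e) (by
          zify [show e ≤ p by omega]; push_cast at hf; linarith) (by omega) (by omega)
        exact ⟨b, c, p - e, fun _ => ⟨hb, (show p - 1 - e = p - e - 1 by omega) ▸
          Nat.dvd_sub Γ.syl.card_autN_dvd dvd_rfl, by omega, by
          rw [T.sum_Y]; exact_mod_cast hf, fun h => absurd h (T.not_mem l)⟩⟩
      exact ⟨0, 0, 0, fun h => (h.elim h1 h4).elim⟩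
  choose b c d h3 using h3
  have h4 : ∀ χ ∈ insert φ U, χ ∈ X ∧ δ χ = 1 ∨ δ₀ = 1 ∧ ∃ l, Y l = χ := fun χ hχ =>
    (Finset.mem_insert.1 hχ).elim (fun h' => h' ▸ h) fun h' => Or.inl ⟨(hU χ h').1, (hU χ h').2.1⟩
  have h5 : ∀ θ ∈ U, ∀ χ ∈ insert φ U, θ ≠ χ → b θ ≠ b χ ∧ (b θ)⁻¹ ≠ b χ := fun θ hθ χ hχ hne => by
    obtain ⟨h6, -, -, -, h7⟩ := h3 θ (h4 θ (Finset.mem_insert_of_mem hθ))
    obtain ⟨h8, h9, h10, h11, -⟩ := h3 χ (h4 χ hχ)
    rw [h7 (hU θ hθ).1] at h6
    have h12 := Γ.wt_dual h6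
    rw [(hU θ hθ).2.2] at h12
    have h13 : ∀ u ≠ 1, θ.1 (ι u) = 1 := fun u hu => by
      rw [T.valX_range (hU θ hθ).1 hu, (hU θ hθ).2.1, Int.cast_one]
    exact ⟨Γ.wt_ne_wt hc h6 h8 h9 h10 h13 h11 (ip_irr_ne hne),
      Γ.wt_ne_wt hc h12 h8 h9 h10 h13 h11 (ip_irr_ne hne)⟩
  have : NeZero e := ⟨he.ne'⟩
  have h6 : ∀ χ ∈ insert φ U, ∃ i ∈ Finset.range (e / 2 + 1), b χ = ZMod.castHom dvd_rfl k s ^ i ∨
      b χ = (ZMod.castHom dvd_rfl k s ^ i)⁻¹ := fun χ hχ => by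
    obtain ⟨i, hi, h6⟩ := Γ.prim.eq_pow_of_pow_eq_one (Gen.wt_pow hg (h3 χ (h4 χ hχ)).1)
    by_cases h7 : i ≤ e / 2
    · exact ⟨i, Finset.mem_range.2 (by omega), Or.inl h6.symm⟩
    · exact ⟨e - i, Finset.mem_range.2 (by omega), Or.inr (eq_inv_of_mul_eq_one_left (by
        rw [← h6, ← pow_add, Nat.add_sub_cancel' hi.le, Γ.prim.pow_eq_one]))⟩
  choose! i hi h6 using h6
  have := Finset.card_le_card_of_injOn i hi fun χ hχ χ' hχ' h7 => by_contra fun h8 => by
    wlog h9 : χ ∈ U generalizing χ χ'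
    · exact this _ hχ' _ hχ h7.symm (Ne.symm h8) ((Finset.mem_insert.1 hχ').resolve_left fun h10 =>
        h8 (((Finset.mem_insert.1 hχ).resolve_right h9).trans h10.symm))
    have h10 := h5 χ h9 χ' hχ' h8
    rcases h6 χ hχ with h11 | h11 <;> rcases h6 χ' hχ' with h12 | h12 <;> simp_all
  rw [Finset.card_insert_of_notMem hφ, Finset.card_range] at this
  omega

end BT.Lat
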