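import Cfsg.Agent.Lib.Block.HZCount
import Cfsg.Agent.Lib.Block.CoverPrin
import Cfsg.Agent.Lib.Block.PrinDeg
import Cfsg.Agent.Lib.Char.RealOdd

/-!
# Groups of `p`-length one and the principal block (Isaacs–Smith)
-/

set_option autoImplicit false
set_option linter.unusedSectionVars false
set_option linter.style.haveILetI false

namespace BT

open Cfsg CT GT
open scoped MonoidAlgebra ComplexConjugate Pointwise commutatorElement

variable {p : ℕ} [Fact p.Prime] {M : Ideal AlgInt} (hM : IsPModular p M)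
variable {G : Type*} [Group G] [Finite G]

theorem sub_mem_of_principal_of_centralizer {P : Subgroup G} (hP : IsSylowIn p P ⊤)
    {χ : IrrCharacter G} (hχ : χ ∈ principalBlock M G) {g : G}
    (hg : g ∈ Subgroup.centralizer (P : Set G)) : χ.1 g - χ.1 1 ∈ locIdeal hM := by
  have h1 : centralChar (fun _ : G => (1 : ℂ)) g - centralChar χ.1 g ∈ locIdeal hM := hχ g
  set c := (Subgroup.centralizer ({g} : Set G)).index with hc
  have hle : P ≤ Subgroup.centralizer ({g} : Set G) := by
    intro x hx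
    rw [Subgroup.mem_centralizer_singleton_iff]
    exact (hg x hx)
  have hpc : ¬ p ∣ c := fun h =>
    (isSylowIn_top_iff'.1 hP).2 (h.trans (Subgroup.index_dvd_of_le hle))
  have hc0 : (c : ℂ) ≠ 0 := by
    rw [Nat.cast_ne_zero]; rintro h; exact hpc (h ▸ dvd_zero p)
  have h10 : χ.1 1 ≠ 0 := irr_apply_one_ne_zero χ
  have h2 := mul_mem_locIdeal_left hM (mul_mem (inv_natCast_mem_locRing hM hpc)
    (mem_locRing_of_isIntegral hM (irr_isIntegral χ 1))) (neg_mem h1)
  convert h2 using 1
  simp only [centralChar, ← hc]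
  field_simp
  ring

/-- The sum of a function on `R` invariant under a `p`-group `P` is congruent to the sum over
`C_R(P)`. -/
theorem sum_sub_sum_centralizer_mem {R P : Subgroup G} [Fintype R] (hP : IsPGroup p P)
    (hn : P ≤ Subgroup.normalizer (R : Set G)) {f : R → ℂ} (hf : InvBy P f)
    (hi : ∀ r, f r ∈ locRing hM)
    [DecidablePred fun r : R => (r : G) ∈ Subgroup.centralizer (P : Set G)] :
    ∑ r, f r - ∑ r ∈ Finset.univ.filter
      (fun r : R => (r : G) ∈ Subgroup.centralizer (P : Set G)), f r ∈ locIdeal hM := by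
  classical
  letI : MulAction P R := MulAction.compHom _ (R.normalizerMonoidHom.comp (Subgroup.inclusion hn))
  have hs : ∀ (x : P) (r : R), ((x • r : R) : G) = x * r * (x : G)⁻¹ := fun x r => rfl
  have h1 := sum_eq_sum_fixedPoints (R := ResF hM) hP (fun r : R => red hM (f r))
    (fun x r => by rw [hf x x.2 r (x • r) (hs x r)])
  rw [← red_eq_iff hM (sum_mem fun r _ => hi r) (sum_mem fun r _ => hi r),
    red_sum hM _ _ fun r _ => hi r, red_sum hM _ _ fun r _ => hi r, h1]
  refine Finset.sum_congr ?_ fun _ _ => rfl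
  ext r
  simp only [Finset.mem_filter, Finset.mem_univ, true_and, MulAction.mem_fixedPoints]
  constructor
  · intro h x hx
    have := congrArg Subtype.val (h ⟨x, hx⟩)
    rw [hs] at this
    exact mul_inv_eq_iff_eq_mul.1 this
  · intro h x
    exact Subtype.ext (by rw [hs]; exact mul_inv_eq_iff_eq_mul.2 (h x x.2))

theorem le_ker_of_forall_centralizer_sub_mem {R P : Subgroup G} [R.Normal] (hP : IsPGroup p P)
    (hR : ¬ p ∣ Nat.card R) {χ : IrrCharacter G} (hd : ¬ p ∣ charDegree χ.1)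
    (h : ∀ c ∈ R, c ∈ Subgroup.centralizer (P : Set G) → χ.1 c - χ.1 1 ∈ locIdeal hM) :
    R ≤ ker χ.1 := by
  classical
  haveI := Fintype.ofFinite R
  by_contra hne
  have h1 := sum_sub_sum_centralizer_mem hM hP (R := R) (Subgroup.le_normalizer_of_normal)
    (invBy_res (irr_isClassFunction χ) P R)
    (fun r => mem_locRing_of_isIntegral hM (irr_isIntegral χ r))
  have h2 := sum_normal_irr_eq_zero R hne 1
  simp only [one_mul] at h2
  simp only [res_apply] at h1
  rw [h2, zero_sub, neg_mem_iff] at h1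
  have h3 : ∑ r ∈ Finset.univ.filter (fun r : R => (r : G) ∈ Subgroup.centralizer (P : Set G)),
      (χ.1 r - χ.1 1) ∈ locIdeal hM := sum_mem fun r hr => h r r.2 (Finset.mem_filter.1 hr).2
  have h4 := sub_mem h1 h3
  rw [Finset.sum_sub_distrib, sub_sub_cancel, Finset.sum_const, nsmul_eq_mul, irr_apply_one,
    ← Nat.cast_mul, natCast_mem_locIdeal_iff] at h4
  refine hR (((hM.1.dvd_mul.1 h4).resolve_right hd).trans ?_)
  have : (Finset.univ.filter fun r : R => (r : G) ∈ Subgroup.centralizer (P : Set G)).card =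
      Nat.card ((Subgroup.centralizer (P : Set G)).subgroupOf R) := by
    rw [← Nat.card_eq_finsetCard]
    exact Nat.card_congr (Equiv.subtypeEquivRight fun r => by simp [Subgroup.mem_subgroupOf])
  rw [this]
  exact Subgroup.card_subgroup_dvd_card _

/-- A character of `p'`-degree contains the commutator subgroup of a normal `p`-subgroup in its
kernel. -/
theorem commutator_le_ker_of_normal_isPGroup {P : Subgroup G} [P.Normal] (hP : IsPGroup p P)
    {χ : IrrCharacter G} (hd : ¬ p ∣ charDegree χ.1) : ⁅P, P⁆ ≤ ker χ.1 := by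
  rw [Subgroup.commutator_le]
  intro x hx y hy
  have h1 : ⁅(⟨x, hx⟩ : P), ⟨y, hy⟩⁆ ∈ ker (res P χ.1) := by
    rw [((irr_isCharacter χ).res P).mem_ker_iff_forall_irr]
    intro θ hθ
    have h2 : charDegree θ.1 = 1 := by
      obtain ⟨k, hk⟩ := IsPGroup.iff_card.1 hP
      obtain ⟨j, -, hj⟩ := (Nat.dvd_prime_pow Fact.out).1 (hk ▸ irr_degree_dvd_card θ)
      obtain ⟨m, -, hm⟩ := LiesOver.exists_degree_eq_mul (χ := χ) hθ
      rcases j with _ | j
      · rw [hj, pow_zero]
      · exact absurd (hm ▸ hj ▸ Dvd.dvd.mul_left (dvd_pow_self p (Nat.succ_ne_zero j)) m) hd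
    exact (irr_commutator_le_ker_iff θ).2 h2
      (Subgroup.commutator_mem_commutator (Subgroup.mem_top _) (Subgroup.mem_top _))
  rw [(irr_isCharacter χ).ker_res] at h1
  exact h1

include hM in
theorem commutator_le_ker_of_abelian_self_normalizing {P L : Subgroup G} [L.Normal]
    (hP : IsSylowIn p P ⊤) (hab : P ≤ Subgroup.centralizer (P : Set G)) (hPL : P ≤ L)
    (hN : L ⊓ Subgroup.normalizer (P : Set G) ≤ P) {χ : IrrCharacter G}
    (hd : ¬ p ∣ charDegree χ.1) : ⁅L, L⁆ ≤ ker χ.1 := by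
  have hPL' := hP.of_le hPL le_top
  have h1 := hPL'.hasNormalPComplement_of_le_centralizer (hN.trans hab)
  obtain ⟨k, hk⟩ := hasNormalPComplement_iff_index_pPrimeCore.1 h1
  haveI := normal_map_subtype_of_characteristic L (pPrimeCore p L)
  have hR := not_dvd_card_map_pPrimeCore (p := p) L
  have hRL : (pPrimeCore p L).map L.subtype ≤ L := Subgroup.map_subtype_le _
  have hk' : ((pPrimeCore p L).map L.subtype).relIndex L = p ^ k := by
    rw [← hk, Subgroup.relIndex, Subgroup.subgroupOf, Subgroup.comap_map_eq_self_of_injective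
      L.subtype_injective]
  have hsup := hPL'.sup_eq_of_relIndex_eq_pow hRL hk'
  generalize (pPrimeCore p L).map L.subtype = R at *
  have h2 : R ≤ ker χ.1 := by
    refine le_ker_of_forall_centralizer_sub_mem hM hP.isPGroup hR hd fun c hc hc' => ?_
    have h3 : c ∈ P := hN ⟨hRL hc, Subgroup.centralizer_le_normalizer _ hc'⟩
    rw [Subgroup.disjoint_def.1 (disjoint_of_isPGroup_of_not_dvd hP.isPGroup hR) h3 hc, sub_self]
    exact zero_mem _
  refine le_trans ?_ h2
  rw [Subgroup.commutator_le]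
  intro x hx y hy
  rw [← hsup, mem_sup_of_le_normalizer_left Subgroup.le_normalizer_of_normal] at hx hy
  obtain ⟨a, ha, u, hu, rfl⟩ := hx
  obtain ⟨b, hb, v, hv, rfl⟩ := hy
  rw [← QuotientGroup.eq_one_iff]
  change QuotientGroup.mk' R _ = 1
  have e1 : QuotientGroup.mk' R a = 1 := (QuotientGroup.eq_one_iff a).2 ha
  have e2 : QuotientGroup.mk' R b = 1 := (QuotientGroup.eq_one_iff b).2 hb
  rw [map_commutatorElement, map_mul, map_mul, e1, e2, one_mul, one_mul, ← map_commutatorElement,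
    commutatorElement_eq_one_iff_mul_comm.2 (hab hv u hu), map_one]

include hM in
theorem hasNormalPComplement_pPrimeResidual_of_res_irr {P : Subgroup G} (hP : IsSylowIn p P ⊤)
    (h : ∀ χ ∈ principalBlock M G, ¬ p ∣ charDegree χ.1 →
      IsIrrCharacter _ (res (Subgroup.normalizer (P : Set G)) χ.1)) :
    HasNormalPComplement p (pPrimeResidual p G) := by
  set N := Subgroup.normalizer (P : Set G) with hN
  set L := pPrimeResidual p G with hL
  have hPN : P ≤ N := Subgroup.le_normalizer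
  have hPL : P ≤ L := le_pPrimeResidual_of_isPGroup hP.isPGroup
  haveI hPn : (P.subgroupOf N).Normal := Subgroup.normal_in_normalizer
  have hPN' : IsSylowIn p (P.subgroupOf N) ⊤ :=
    (isSylowIn_subgroupOf_top_iff hPN).2 (hP.of_le hPN le_top)
  have hNs : IsPSolvable p N := isPSolvable_of_normal (P.subgroupOf N)
    (isPSolvable_of_isPGroup hPN'.isPGroup)
    (isPSolvable_of_not_dvd (isSylowIn_top_iff'.1 hPN').2)
  let K : Subgroup G := ⨅ χ : {χ : IrrCharacter G // χ ∈ principalBlock M G ∧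
    ¬ p ∣ charDegree χ.1}, ker χ.1.1
  haveI hKn : K.Normal := Subgroup.normal_iInf_normal fun χ => irr_ker_normal χ.1
  have hK : ∀ χ ∈ principalBlock M G, ¬ p ∣ charDegree χ.1 → K ≤ ker χ.1 := fun χ h1 h2 =>
    iInf_le_of_le ⟨χ, h1, h2⟩ le_rfl
  have hK' : ∀ n : N, (∀ χ ∈ principalBlock M G, ∀ ξ : IrrCharacter N, ¬ p ∣ charDegree ξ.1 →
      res N χ.1 = ξ.1 → n ∈ ker ξ.1) → (n : G) ∈ K := by
    intro n hn
    refine Subgroup.mem_iInf.2 fun χ => ?_
    have := hn χ.1 χ.2.1 ⟨_, h χ.1 χ.2.1 χ.2.2⟩ (by rw [charDegree_res]; exact χ.2.2) rfl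
    rwa [(irr_isCharacter χ.1).ker_res] at this
  have h1 : ∀ x ∈ P, ∀ y ∈ P, ⁅x, y⁆ ∈ K := by
    intro x hx y hy
    exact hK' ⁅⟨x, hPN hx⟩, ⟨y, hPN hy⟩⁆ fun χ _ ξ hξ _ =>
      commutator_le_ker_of_normal_isPGroup hPN'.isPGroup hξ
        (Subgroup.commutator_mem_commutator hx hy)
  have h2 : ∀ d ∈ pPrimeCore p N, (d : G) ∈ K := by
    intro d hd
    refine hK' d fun χ hχ ξ hξ hres => le_ker_of_forall_centralizer_sub_mem hM hPN'.isPGroup
      (not_dvd_card_pPrimeCore p N) hξ (fun c _ hc => ?_) hd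
    rw [← hres]
    exact sub_mem_of_principal_of_centralizer hM hP hχ fun x hx =>
      congrArg Subtype.val (hc ⟨x, hPN hx⟩ hx)
  have h3 : ∀ n : N, (n : G) ∈ L ⊔ K → (n : G) ∈ P ⊔ K := by
    intro n hn
    have : n ∈ P.subgroupOf N ⊔ pPrimeCore p N := by
      by_contra hne
      obtain ⟨ξ, hξ, hξ'⟩ := exists_irr_le_ker_not_mem _ hne
      have a1 : ξ ∈ principalBlock M N :=
        (mem_principal_iff_of_isPSolvable hM hNs ξ).2 (le_sup_right.trans hξ)
      have a2 : ¬ p ∣ charDegree ξ.1 := fun hd => (isSylowIn_top_iff'.1 hPN').2 (hd.trans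
        (irr_degree_dvd_index_of_commutator_le_ker ξ _
          ((Subgroup.commutator_le_left _ _).trans (le_sup_left.trans hξ))))
      obtain ⟨χ, b1, b2, b3⟩ := exists_principal_not_dvd_liesOver hM hP hPN
        (Subgroup.centralizer_le_normalizer _) a1 a2
      have b4 : res N χ.1 = ξ.1 := by
        have := irr_eq_of_ip_ne_zero (χ := ⟨_, h χ b1 b2⟩) (ψ := ξ)
          ((liesOver_iff_mult_pos (irr_isCharacter χ) (irr_isCharacter ξ)).2
            (Nat.pos_of_ne_zero fun e => b3 (e ▸ dvd_zero p)))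
        exact congrArg Subtype.val this
      have b5 : ∀ x : N, x ∈ ker ξ.1 ↔ (x : G) ∈ ker χ.1 := fun x => by
        rw [← b4, (irr_isCharacter χ).ker_res]; rfl
      have b6 : L ≤ ker χ.1 := by
        rw [hL, pPrimeResidual_eq_normalClosure hP.toSylowTop]
        exact Subgroup.normalClosure_le_normal fun x hx =>
          (b5 ⟨x, hPN hx⟩).1 (hξ (Subgroup.mem_sup_left hx))
      exact hξ' ((b5 n).2 (sup_le b6 (hK χ b1 b2) hn))
    rw [mem_sup_of_le_normalizer_right Subgroup.le_normalizer_of_normal] at this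
    obtain ⟨u, hu, d, hd, rfl⟩ := this
    exact mul_mem (Subgroup.mem_sup_left hu) (Subgroup.mem_sup_right (h2 d hd))
  have hs := QuotientGroup.mk'_surjective K
  have h4 : ∀ χ ∈ principalBlock M G, ¬ p ∣ charDegree χ.1 → ⁅L, L⁆ ≤ ker χ.1 := by
    intro χ hχ hd
    obtain ⟨ψ, rfl⟩ := (exists_inflate_eq_iff K χ).2 (hK χ hχ hd)
    haveI : (L.map (QuotientGroup.mk' K)).Normal := Subgroup.Normal.map inferInstance _ hs
    have := commutator_le_ker_of_abelian_self_normalizing hM (L := L.map (QuotientGroup.mk' K))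
      (hP.map_top_of_surjective hs) ?_ (Subgroup.map_mono hPL) ?_ (χ := ψ) hd
    · rw [ker_inflate, ← Subgroup.map_le_iff_le_comap, Subgroup.map_commutator]
      exact this
    · rintro _ ⟨x, hx, rfl⟩ _ ⟨y, hy, rfl⟩
      rw [← commutatorElement_eq_one_iff_mul_comm, ← map_commutatorElement]
      exact (QuotientGroup.eq_one_iff _).2 (h1 y hy x hx)
    · rintro z ⟨hz1, hz2⟩
      obtain ⟨n, hn, rfl⟩ := hP.exists_mem_normalizer_map_eq hs hz2
      have c1 : n ∈ L ⊔ K := by
        have : n ∈ (L.map (QuotientGroup.mk' K)).comap (QuotientGroup.mk' K) := hz1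
        rwa [Subgroup.comap_map_eq, QuotientGroup.ker_mk'] at this
      have c2 : n ∈ (P.map (QuotientGroup.mk' K)).comap (QuotientGroup.mk' K) := by
        rw [Subgroup.comap_map_eq, QuotientGroup.ker_mk']
        exact h3 ⟨n, hn⟩ c1
      exact c2
  refine hasNormalPComplement_of_principal_degrees hM fun θ hθ hd => ?_
  obtain ⟨χ, hχ, hl⟩ := exists_principal_liesOver hM hθ
  exact hl.degree_eq_one_of_commutator_le_ker (irr_isClassFunction χ) (h4 χ hχ (by
    rw [hl.prime_dvd_degree_iff hM.1 (not_dvd_index_pPrimeResidual p G)]; exact hd))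

theorem isIrr_res_of_ker_sup_eq_top {K H : Subgroup G} [K.Normal] (hs : K ⊔ H = ⊤)
    {χ : IrrCharacter G} (hK : K ≤ ker χ.1) : IsIrrCharacter H (res H χ.1) := by
  obtain ⟨ψ, rfl⟩ := (exists_inflate_eq_iff K χ).2 hK
  refine ψ.2.comp_of_surjective ((QuotientGroup.mk' K).comp H.subtype) fun y => ?_
  obtain ⟨x, rfl⟩ := QuotientGroup.mk'_surjective K y
  have hx : x ∈ K ⊔ H := hs ▸ Subgroup.mem_top x
  rw [mem_sup_of_le_normalizer_left Subgroup.le_normalizer_of_normal] at hx
  obtain ⟨a, ha, b, hb, rfl⟩ := hx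
  refine ⟨⟨b, hb⟩, ?_⟩
  have e1 : QuotientGroup.mk' K a = 1 := (QuotientGroup.eq_one_iff a).2 ha
  rw [map_mul, e1, one_mul]
  rfl

theorem pLengthLE_one_iff_pPrimeResidual :
    PLengthLE p 1 G ↔ HasNormalPComplement p (pPrimeResidual p G) := by
  rw [pLengthLE_one_iff, ← pPrimeResidual_le_iff, hasNormalPComplement_iff_index_pPrimeCore]
  have e : (pPrimeCore p (pPrimeResidual p G)).index =
      (pPrimeCore p G).relIndex (pPrimeResidual p G) := by
    rw [← Subgroup.inf_relIndex_right, ← map_subtype_pPrimeCore, Subgroup.relIndex,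
      Subgroup.subgroupOf, Subgroup.comap_map_eq_self_of_injective (Subgroup.subtype_injective _)]
  rw [e]
  refine ⟨fun h => ?_, fun ⟨k, hk⟩ => le_pPrimePCore hk⟩
  obtain ⟨k, hk⟩ := exists_relIndex_pPrimePCore (p := p) (G := G)
  obtain ⟨j, -, hj⟩ := (Nat.dvd_prime_pow Fact.out).1
    (hk ▸ relIndex_dvd_of_le_right (N := pPrimeCore p G) h)
  exact ⟨j, hj⟩

theorem pPrimeCore_sup_normalizer_of_pLengthLE_one (h : PLengthLE p 1 G) {P : Subgroup G}
    (hP : IsSylowIn p P ⊤) : pPrimeCore p G ⊔ Subgroup.normalizer (P : Set G) = ⊤ := by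
  rw [pLengthLE_one_iff] at h
  have h1 := hP.of_le (le_of_isPGroup_of_not_dvd_index hP.isPGroup h) le_top
  rw [← h1.frattini_top, ← pPrimeCore_sup_eq_of_isSylowIn h1, sup_assoc,
    sup_eq_right.2 Subgroup.le_normalizer]

end BT
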