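import Cfsg.Agent.Lib.Block.PerfIso
import Cfsg.Agent.Lib.Char.DadeExt

/-!
# Blocks of `p`-solvable groups with abelian defect groups and their Brauer correspondents
-/

set_option autoImplicit false
set_option linter.unusedSectionVars false
set_option linter.style.haveILetI false

namespace BT

open Cfsg CT GT Subgroup
open scoped MonoidAlgebra ComplexConjugate Pointwise

universe u

variable {p : ℕ} [Fact p.Prime] {M : Ideal AlgInt} (hM : IsPModular p M)

variable {G : Type u} [Group G] [Finite G]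

theorem coeff_sidem_singleton {K : Subgroup G} (θ : IrrCharacter K) (k : K) :
    (sidem hM K {θ}).coeff k = red hM ((Nat.card K : ℂ)⁻¹ * (θ.1 1 * conj (θ.1 k))) := by
  rw [sidem_def, coeff_emb_coe, coeff_idem, blockCoeff_singleton]

theorem singleton_coeff_mem {K : Type*} [Group K] [Finite K] (hK : ¬ p ∣ Nat.card K)
    (θ : IrrCharacter K) (k : K) :
    (Nat.card K : ℂ)⁻¹ * (θ.1 1 * conj (θ.1 k)) ∈ locRing hM := by
  rw [← (irr_isCharacter θ).apply_inv]
  exact mul_mem (inv_natCast_mem_locRing hM hK) (mul_mem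
    (mem_locRing_of_isIntegral hM (isIntegral_character_value (irr_isCharacter θ) _))
    (mem_locRing_of_isIntegral hM (isIntegral_character_value (irr_isCharacter θ) _)))

theorem BIdem.exists_singleton {C : Subgroup G} (hC : ¬ p ∣ Nat.card C) {e : (ResF hM)[G]}
    (he : BIdem C e) : ∃ φ : IrrCharacter C, sidem hM C {φ} = e := by
  obtain ⟨b, hb, rfl⟩ := he.exists_block hM
  obtain ⟨φ, hφ⟩ := block_nonempty hM hb
  exact ⟨φ, by rw [block_eq_of_mem hM hb (isPBlock_singleton_of_not_dvd hM hC φ) hφ rfl]⟩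

theorem central_div_eq_of_coeff {N C : Subgroup G} (hN : ¬ p ∣ Nat.card N)
    (hC : ¬ p ∣ Nat.card C) {θ : IrrCharacter N} {φ : IrrCharacter C} {z : G}
    (hz : z ∈ center G) (hzN : z ∈ N) (hzC : z ∈ C)
    (h1 : (sidem hM N {θ}).coeff 1 = (sidem hM C {φ}).coeff 1)
    (h2 : (sidem hM N {θ}).coeff z = (sidem hM C {φ}).coeff z) :
    θ.1 ⟨z, hzN⟩ / θ.1 1 = φ.1 ⟨z, hzC⟩ / φ.1 1 := by
  have hr : ¬ p ∣ orderOf z := isPRegular_of_mem hN hzN
  have key : ∀ {K : Subgroup G} (hK : ¬ p ∣ Nat.card K) (θ : IrrCharacter K) (h : z ∈ K),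
      conj (θ.1 ⟨z, h⟩ / θ.1 1) ^ orderOf z = 1 ∧ (sidem hM K {θ}).coeff z =
        red hM (conj (θ.1 ⟨z, h⟩ / θ.1 1)) * (sidem hM K {θ}).coeff 1 := fun {K} hK θ h => by
    have hc : (⟨z, h⟩ : K) ∈ center K :=
      mem_center_iff.2 fun g => Subtype.ext (mem_center_iff.1 hz g)
    have h3 : conj (θ.1 ⟨z, h⟩ / θ.1 1) ^ orderOf z = 1 := by
      rw [← map_pow, irr_central_div_pow θ hc, ← orderOf_mk z h, pow_orderOf_eq_one,
        div_self (irr_apply_one_ne_zero θ), map_one]
    refine ⟨h3, ?_⟩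
    rw [coeff_sidem_singleton hM θ ⟨z, h⟩, ← OneMemClass.coe_one K, coeff_sidem_singleton,
      ← red_mul hM (mem_locRing_of_isIntegral hM
        (isIntegral_of_pow_eq_one (orderOf_pos z).ne' h3)) (singleton_coeff_mem hM hK θ 1)]
    congr 1
    have h4 : conj (θ.1 1) ≠ 0 := (map_ne_zero _).2 (irr_apply_one_ne_zero θ)
    rw [map_div₀]
    field_simp
  obtain ⟨a1, a2⟩ := key hN θ hzN
  obtain ⟨b1, b2⟩ := key hC φ hzC
  rw [a2, b2, h1, mul_left_inj' (coeff_sidem_singleton_one_ne_zero hM hC φ),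
    red_eq_iff hM (mem_locRing_of_isIntegral hM (isIntegral_of_pow_eq_one (orderOf_pos z).ne' a1))
      (mem_locRing_of_isIntegral hM (isIntegral_of_pow_eq_one (orderOf_pos z).ne' b1))] at h2
  exact (starRingEnd ℂ).injective (eq_of_pow_eq_one_of_sub_mem hM hr a1 b1 h2)

include hM in
theorem PI.of_triple' {Δ A Q K : Type*} [Group Δ] [Finite Δ] [Group A] [Finite A] [Group Q]
    [Finite Q] [Group K] [Finite K] {π : Δ →* A} (hπ : Function.Surjective π)
    (hZ : π.ker ≤ center Δ) (hZp : ¬ p ∣ Nat.card π.ker) {σ : Δ →* Q}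
    (hσ : Function.Surjective σ) (hK : ¬ p ∣ Nat.card K) {j : K →* Δ}
    (hj : Function.Injective j) (hjσ : j.range = σ.ker) (τ : IrrCharacter Δ) {θ : IrrCharacter K}
    (hres : ∀ k, τ.1 (j k) = θ.1 k) {S : Set (IrrCharacter Q)}
    (hS : ∀ β, β ∈ S ↔ ∀ z ∈ π.ker, τ.1 z / τ.1 1 * (β.1 (σ z) / β.1 1) = 1)
    {B : Set (IrrCharacter A)} (hB : ∀ χ, χ ∈ B ↔ ip (fun k => χ.1 (π (j k))) θ.1 ≠ 0) :
    PI p M S B := by
  let e : K ≃* σ.ker := (MonoidHom.ofInjective hj).trans (MulEquiv.subgroupCongr hjσ)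
  have he : ∀ k, (e k : Δ) = j k := fun _ => rfl
  refine PI.of_triple hM hπ hZ hZp hσ (by rwa [← Nat.card_congr e.toEquiv]) (irr_isCharacter τ)
    (θ := irrCongr e θ) (funext fun y => ?_) (fun z hz => irr_apply_central_mul τ (hZ hz)) hS
    fun χ => ?_
  · obtain ⟨k, rfl⟩ := e.surjective y
    rw [res_apply, he, hres, irrCongr_apply, MulEquiv.symm_apply_apply]
  · rw [hB, LiesOver, ← ip_comp_mulEquiv e]
    simp only [res_apply, he, irrCongr_apply, MulEquiv.symm_apply_apply]

theorem PI.of_invariant {K P H : Subgroup G} [K.Normal] (hK : ¬ p ∣ Nat.card K)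
    (hP : IsPGroup p P) (hH : H = normalizer (P : Set G)) (hKH : K ⊔ H = ⊤)
    {θ : IrrCharacter K} (hθ : ∀ g : G, g • θ = θ) {B : Set (IrrCharacter G)}
    (hB : ∀ χ, χ ∈ B ↔ LiesOver K χ.1 θ.1) {c : Set (IrrCharacter H)} (hc : IsPBlock M c)
    (hbr : br P (sidem hM K {θ}) = sidem hM H c) : PI p M c B := by
  have hp : p.Prime := Fact.out
  obtain ⟨E⟩ := nonempty_centralExt K θ (forall_smul_iff.1 hθ)
  have hZ : ¬ p ∣ Nat.card E.π.ker := fun h =>
    ((Nat.Prime.dvd_mul hp).1 (h.trans E.card_ker_dvd)).elim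
      (fun h => hK (h.trans (irr_degree_dvd_card θ))) fun h => hK (h.trans (detOrder_dvd_card _))
  have hPH : P ≤ H := hH ▸ le_normalizer
  obtain ⟨S, hS⟩ := exists_isSylowIn p (P.comap E.π)
  have hSP : S.map E.π = P := by
    have := hS.map E.π
    rw [map_comap_eq_self_of_surjective E.surj] at this
    exact this.eq_self_of_isPGroup hP
  have hSn : P.comap E.π ≤ normalizer (S : Set E.Γ) := by
    rw [← hSP, comap_map_eq]
    exact sup_le le_normalizer (E.ker_le.trans (center_le_normalizer _))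
  have hHS : H.comap E.π ≤ normalizer (S : Set E.Γ) := by
    rw [hH]
    exact (le_normalizer_comap E.π).trans (hS.normalizer_le_normalizer hSn)
  set C := K ⊓ centralizer (P : Set G) with hC
  have hCH : C ≤ H := hH ▸ inf_le_right.trans (centralizer_le_normalizer _)
  have hHC : H ≤ normalizer (C : Set G) :=
    le_normalizer_inf le_normalizer_of_normal (le_normalizer_centralizer hH.le)
  have hCp : ¬ p ∣ Nat.card C := fun h => hK (h.trans (card_dvd_of_le inf_le_left))
  have hcard : ∀ U : Subgroup G, ¬ p ∣ Nat.card U → ¬ p ∣ Nat.card (U.comap E.π) := fun U hU h => by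
    rw [card_comap_of_surjective E.surj] at h
    exact ((Nat.Prime.dvd_mul hp).1 h).elim hU hZ
  have hC' : C.comap E.π = K.comap E.π ⊓ centralizer (S : Set E.Γ) := by
    ext x
    refine ⟨fun hx => ⟨hx.1, fun s hs => ?_⟩, fun hx => ⟨hx.1, ?_⟩⟩
    · obtain ⟨z, n, rfl⟩ := E.exists_eq_mul hx.1
      have h1 : E.π s * n = n * E.π s := by
        have := hx.2 (E.π s) (hS.le hs)
        rwa [map_mul, z.2, one_mul, E.π_ι] at this
      have h2 : s * E.ι n * s⁻¹ = E.ι n := by
        rw [E.conj_ι]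
        congr 1
        exact Subtype.ext (by rw [MulAut.conjNormal_apply, h1, mul_inv_cancel_right])
      rw [← mul_assoc, mem_center_iff.1 (E.ker_le z.2) s, mul_assoc, mul_assoc,
        ← mul_inv_eq_iff_eq_mul.1 h2]
    · rw [← hSP]
      rintro _ ⟨s, hs, rfl⟩
      rw [← map_mul, ← map_mul, hx.2 s hs]
  have hιK : E.ι.range ≤ K.comap E.π := E.range_sup_ker ▸ le_sup_left
  let θ' : IrrCharacter (K.comap E.π) := ⟨res _ E.τ.1,
    isIrr_of_resLe_eq hιK ((irr_isCharacter E.τ).res _)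
      (θ := irrCongr (MonoidHom.ofInjective E.ι_injective) θ) E.res_range_τ⟩
  have hfix : IsFixed S (sidem hM _ {θ'}) := (isCentral_sidem_singleton hM (hcard K hK)
    (forall_smul_iff.2 fun x n => irr_isClassFunction E.τ _ _)).isFixed S
  obtain ⟨φ', hφ'⟩ := (hC' ▸ (bIdem_sidem hM (isPBlock_singleton_of_not_dvd hM (hcard K hK)
    θ')).br_of_not_dvd hM (hcard K hK) hS.isPGroup le_normalizer_of_normal hfix).exists_singleton
      hM (hcard C hCp)
  obtain ⟨η, hη⟩ := (dade_ext_br hM hS.isPGroup (hcard K hK) (hS.le.trans (comap_mono hPH))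
    le_normalizer_of_normal hHS hC' (comap_mono hCH) hφ'.symm
    ⟨le_sup_left, res _ E.τ.1, (irr_isCharacter E.τ).res _, rfl⟩).exists_irr (comap_mono hCH)
  have hco : ∀ y ∈ C.comap E.π, (sidem hM _ {θ'}).coeff y = (sidem hM _ {φ'}).coeff y :=
    fun y hy => by rw [hφ', coeff_br_of_mem _ (hC'.le hy).2]
  have hZC : E.π.ker ≤ C.comap E.π := ker_le_comap _ _
  have hηz : ∀ z : H.comap E.π, z ∈ (E.πU H).ker → η.1 z / η.1 1 = E.τ.1 z / E.τ.1 1 := by
    intro z hz
    have hz' : (z : E.Γ) ∈ E.π.ker := congrArg Subtype.val hz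
    have := central_div_eq_of_coeff hM (hcard K hK) (hcard C hCp) (E.ker_le hz')
      (ker_le_comap _ _ hz') (hZC hz') (hco 1 (one_mem _)) (hco z (hZC hz'))
    rw [← hη] at this
    exact this.symm
  let j : C →* C.comap E.π := (E.ι.comp (inclusion inf_le_left)).codRestrict _ fun k => by
    rw [mem_comap, MonoidHom.comp_apply, E.π_ι]; exact k.2
  have hj : Function.Injective j := fun a b h =>
    inclusion_injective _ (E.ι_injective (congrArg Subtype.val h))
  let φ : IrrCharacter C := ⟨fun k => φ'.1 (j k), by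
    refine (isIrr_comp_mulEquiv_iff (MonoidHom.ofInjective hj)).2
      (isIrr_res_of_sup_center (V := E.π.ker.subgroupOf _) (U := j.range) (fun z hz => ?_) ?_ φ')
    · exact mem_center_iff.2 fun g => Subtype.ext (mem_center_iff.1 (E.ker_le hz) g)
    · rw [eq_top_iff]
      rintro ⟨x, hx⟩ -
      obtain ⟨z, n, rfl⟩ := E.exists_eq_mul hx.1
      have hn : (n : G) ∈ C := by
        have := mem_comap.1 hx
        rwa [map_mul, z.2, one_mul, E.π_ι] at this
      rw [sup_comm]
      exact mul_mem_sup (S := E.π.ker.subgroupOf _) (T := j.range) (x := ⟨z, hZC z.2⟩)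
        (y := j ⟨n, hn⟩) z.2 ⟨_, rfl⟩⟩
  have hφ : br P (sidem hM K {θ}) = sidem hM C {φ} := ga_ext fun g => by
    by_cases hg : g ∈ C
    · have h1 := hco (j ⟨g, hg⟩) (j ⟨g, hg⟩).2
      rw [coeff_sidem_singleton hM θ' ⟨_, comap_mono inf_le_left (j ⟨g, hg⟩).2⟩,
        coeff_sidem_singleton, card_comap_of_surjective E.surj,
        card_comap_of_surjective E.surj] at h1
      have h2 : θ'.1 ⟨_, comap_mono inf_le_left (j ⟨g, hg⟩).2⟩ = θ.1 ⟨g, hg.1⟩ := E.τ_ι _
      have h3 : θ'.1 1 = θ.1 1 := E.τ_one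
      have h4 : φ.1 1 = φ'.1 1 := congrArg φ'.1 (map_one j)
      have h5 := inv_natCast_mem_locRing hM hZ
      rw [h2, h3, ← h4, Nat.cast_mul, Nat.cast_mul, mul_inv, mul_inv, mul_right_comm,
        mul_right_comm (Nat.card C : ℂ)⁻¹, red_mul hM (singleton_coeff_mem hM hK θ _) h5,
        red_mul hM (singleton_coeff_mem hM hCp φ ⟨g, hg⟩) h5, mul_left_inj'] at h1
      · rw [coeff_br_of_mem _ hg.2, coeff_sidem_singleton hM θ ⟨g, hg.1⟩,
          coeff_sidem_singleton hM φ ⟨g, hg⟩, h1]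
      · rw [Ne, red_eq_zero_iff hM h5]
        exact inv_not_mem_locIdeal hM (natCast_mem _ _) card_cast_ne_zero
    · have h1 : (sidem hM C {φ}).coeff g = 0 := by
        by_contra h
        exact hg (suppIn_emb C _ g h)
      rw [h1]
      by_cases hg' : g ∈ centralizer (P : Set G)
      · rw [coeff_br_of_mem _ hg']
        by_contra h
        exact hg ⟨suppIn_emb K _ g h, hg'⟩
      · exact coeff_br_of_not_mem _ hg'
  have hcφ : ∀ χ, χ ∈ c ↔ LiesOverLe hCH χ.1 φ.1 := fun χ => by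
    have := CT.normal_subgroupOf_of_le_normalizer hHC
    rw [mem_iff_of_idem_eq_sidem hM hc (isPBlock_singleton_of_not_dvd hM
      (by rwa [card_subgroupOf_of_le hCH]) (irrOf hCH φ)) (emb_injective H (by
        rw [← sidem_def, ← hbr, hφ, ← emb_sidem_subgroupOf hM hCH, mapSet_eq_image,
          Set.image_singleton]
        rfl)), ← liesOver_irrOf_iff]
    simp
  have h1 : PI p M {β : IrrCharacter E.Q |
      ∀ z ∈ E.π.ker, E.τ.1 z / E.τ.1 1 * (β.1 (E.σ z) / β.1 1) = 1} B :=
    PI.of_triple' hM E.surj E.ker_le hZ E.σ_surjective hK E.ι_injective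
      (QuotientGroup.ker_mk' _).symm E.τ E.τ_ι (fun _ => Iff.rfl) fun χ => by
        simp only [hB, E.π_ι]; rfl
  refine (PI.symm ?_).trans hM h1
  have hker : (E.πU H).ker = E.π.ker.subgroupOf _ := Subgroup.ext fun x => Subtype.ext_iff
  have hZH : E.π.ker ≤ H.comap E.π := ker_le_comap _ _
  refine PI.of_triple' hM (π := E.πU H) CentralExt.πU_surjective (fun z hz => ?_) ?_
    (σ := E.σ.comp (H.comap E.π).subtype) (fun q => ?_) hCp
    (j := (inclusion (comap_mono hCH)).comp j) ((inclusion_injective (comap_mono hCH)).comp hj) ?_ η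
    (θ := φ)
    (fun k => congrFun hη (j k)) (fun β => ?_) fun χ => ?_
  · rw [hker] at hz
    exact mem_center_iff.2 fun g => Subtype.ext (mem_center_iff.1 (E.ker_le hz) g)
  · rwa [hker, card_subgroupOf_of_le hZH]
  · obtain ⟨x, rfl⟩ := E.σ_surjective q
    obtain ⟨k, hk, h, hh, e⟩ := mem_sup_of_normal_left.1 (hKH ▸ mem_top (E.π x))
    refine ⟨⟨(E.ι ⟨k, hk⟩)⁻¹ * x, ?_⟩, ?_⟩
    · rw [mem_comap, map_mul, map_inv, E.π_ι, ← e, inv_mul_cancel_left]
      exact hh
    · rw [MonoidHom.comp_apply, subtype_apply, map_mul, map_inv, E.σ_ι, inv_one, one_mul]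
  · ext x
    refine ⟨?_, fun hx => ?_⟩
    · rintro ⟨k, rfl⟩
      exact E.σ_ι _
    · obtain ⟨n, hn⟩ := (QuotientGroup.eq_one_iff _).1 hx
      have h2 : (n : G) ∈ H := by
        rw [← E.π_ι, hn]; exact x.2
      have h3 : (n : G) ∈ C := by
        rw [hC, ← (coprimeAct_of_isPGroup_left le_normalizer_of_normal hP hK).inf_normalizer_eq]
        exact ⟨n.2, hH ▸ h2⟩
      exact ⟨⟨n, h3⟩, Subtype.ext hn⟩
  · refine ⟨fun h z hz => ?_, fun h z hz => ?_⟩
    · rw [hηz z hz]
      exact h z (congrArg Subtype.val hz)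
    · have h2 : (⟨z, hZH hz⟩ : H.comap E.π) ∈ (E.πU H).ker := Subtype.ext hz
      have := h _ h2
      rwa [hηz _ h2] at this
  · rw [hcφ, LiesOverLe]
    congr! 2
    funext k
    exact congrArg χ.1 (Subtype.ext (E.π_ι (inclusion inf_le_left k)).symm)

theorem PI.of_conj {B : Set (IrrCharacter G)} {D : Subgroup G} (g : G)
    (h : ∀ c : Set (IrrCharacter (normalizer (D : Set G))), IsPBlock M c →
      br D (idem hM B) = sidem hM _ c → PI p M c B) {N : Subgroup G}
    (hN : N = normalizer ((D.map (MulAut.conj g).toMonoidHom : Subgroup G) : Set G))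
    {c : Set (IrrCharacter N)} (hc : IsPBlock M c)
    (hbr : br (D.map (MulAut.conj g).toMonoidHom) (idem hM B) = sidem hM N c) : PI p M c B := by
  let e := conjEquivOf g ((map_equiv_normalizer_eq D (MulAut.conj g)).trans hN.symm)
  refine (PI.mapSet hM e.symm (isInt_setIdem hM hc)).trans hM
    (h _ (isPBlock_mapSet _ hc) (cj_injective g ?_))
  rw [← sidem_mapSet_conj hM g e (fun _ => rfl), mapSet_mapSet_symm, ← hbr, cj_br,
    isFixed_iff_cj.1 ((isCentral_idem hM B).isFixed ⊤) g trivial]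

theorem PI.of_isPSolvable (hG : IsPSolvable p G) {B : Set (IrrCharacter G)} (hB : IsPBlock M B) :
    ∀ P N : Subgroup G, IsDefectGroup p M B P → (∀ x ∈ P, ∀ y ∈ P, x * y = y * x) →
      N = normalizer (P : Set G) → ∀ c : Set (IrrCharacter N), IsPBlock M c →
        br P (idem hM B) = sidem hM N c → PI p M c B := by
  refine fong_induction hM (C := fun G _ _ B => ∀ P N : Subgroup G, IsDefectGroup p M B P →
    (∀ x ∈ P, ∀ y ∈ P, x * y = y * x) → N = normalizer (P : Set G) →
      ∀ c : Set (IrrCharacter N), IsPBlock M c → br P (idem hM B) = sidem hM N c → PI p M c B)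
    ?_ ?_ G hG B hB
  · intro G _ _ hG θ hθ B hB h1 h2 P N hP hab hN c hc hbr
    have hS := (h2 P).1 hP
    have hQ := hS.inf_of_le_normalizer (N := pPrimePCore p G) le_top le_normalizer_of_normal
    have hC := centralizer_le_pPrimePCore hG hQ
    have hS' : IsSylowIn p P (pPrimePCore p G) :=
      hS.of_le (fun x hx => hC fun y hy => hab y hy.1 x hx) le_top
    obtain ⟨B₀, -, h3, h4, -⟩ := exists_block_over_pPrimeCore hM hQ hC hθ
    obtain rfl : B = B₀ := Set.ext fun χ => (h1 χ).trans (h4 χ).symm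
    refine PI.of_invariant hM (not_dvd_card_pPrimeCore p G) hS.isPGroup hN ?_ hθ h1 hc (h3 ▸ hbr)
    rw [eq_top_iff, ← hS'.frattini_top, ← pPrimeCore_sup_eq_of_isSylowIn hS', hN]
    exact sup_le (sup_le_sup_left le_normalizer _) le_sup_right
  · intro G _ _ hG T hKT θ _ hT B' B hcov hind ih P N hP hab hN c hc hbr
    have hK := not_dvd_card_pPrimeCore p G
    have hb := isPBlock_singleton_of_not_dvd hM hK θ
    obtain ⟨D', hD'⟩ := exists_isDefectGroup hM hind.1 (p := p)
    have hD := fong_isDefectGroup hM hb hT hcov hind hD'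
    have hDD' := (isDefectGroup_iff_defGrp_sub hM hind.1 D').1 hD'
    generalize hDD : D'.map T.subtype = D at hD hDD'
    obtain ⟨g, rfl⟩ := exists_conj_of_isDefectGroup hM hind.2.1 hD hP
    refine PI.of_conj hM g (fun c hc hbr => ?_) hN hc hbr
    have hab' : ∀ x ∈ D', ∀ y ∈ D', x * y = y * x := fun x hx y hy =>
      Subtype.ext ((MulAut.conj g).injective (by
        rw [coe_mul, coe_mul, map_mul, map_mul]
        exact hab _ ⟨_, hDD.le ⟨x, hx, rfl⟩, rfl⟩ _ ⟨_, hDD.le ⟨y, hy, rfl⟩, rfl⟩))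
    have hDT : D ≤ T := hDD'.le
    have hDp := isPGroup_of_isDefectGroup hD
    have hT' : ∀ g : G, g ∈ T ↔ cj g (sidem hM _ {θ}) = sidem hM _ {θ} := fun g =>
      (hT g).trans (cj_sidem_eq_iff hM hb g).symm
    obtain ⟨h1, h2⟩ := fong_mul_sidem hM hb hT hind.1 hcov
    have he := bIdem_sidem hM hind.1
    obtain ⟨h3, h4⟩ := (fong_setup hM hK hKT hT' hind.1
      ((coversLe_iff_mul hM hKT hind.1 hb).1 hcov)).2 B hind
    obtain ⟨cL, hcL, h5⟩ := (first_main_br hM he hDD').1.exists_block hM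
    have h6 := ih D' ((T ⊓ normalizer (D : Set G)).subgroupOf T) hD' hab'
      (by rw [inf_subgroupOf_left, subgroupOf_normalizer_eq hDT, ← hDD, subgroupOf,
        comap_map_eq_self_of_injective T.subtype_injective])
      _ (isPBlock_mapSet (subgroupOfEquivOfLe inf_le_left).symm hcL) (emb_injective T (by
        rw [emb_sidem_subgroupOf, h5, ← br_emb, hDD]; rfl))
    have hθD := h1.fixed.mono hDT
    have hf := (bIdem_sidem hM hb).br_of_not_dvd hM hK hDp le_normalizer_of_normal hθD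
    have hC : ¬ p ∣ Nat.card ↥(pPrimeCore p G ⊓ centralizer (D : Set G)) :=
      fun h => hK (h.trans (card_dvd_of_le inf_le_left))
    obtain ⟨φ, hφ⟩ := hf.exists_singleton hM hC
    have h0 := (bIdem_sidem hM hcL).ne_zero
    have h7 : PI p M cL c := by
      refine PI.of_fong_le hM (θ := φ) hC (inf_le_inf hKT (centralizer_le_normalizer _))
        inf_le_right (le_normalizer_inf le_normalizer_of_normal (le_normalizer_centralizer le_rfl))
        (fun g hg => ?_) hcL ?_ hc ?_
      · have hg' := map_conj_eq_of_mem_normalizer hg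
        rw [mem_inf, and_iff_left hg, hT', hφ, cj_br, hg']
        refine ⟨fun h => by rw [h], fun h => ?_⟩
        refine (((bIdem_sidem hM hb).cj_of_mem_normalizer
          (le_normalizer_of_normal (mem_top g))).eq_or_mul_eq_zero
            (bIdem_sidem hM hb)).resolve_right fun h' => hf.ne_zero ?_
        rw [← hf.idem]
        nth_rewrite 1 [← h]
        rw [← br_mul hDp (hg' ▸ isFixed_cj hθD g) hθD, h', map_zero]
      · rw [h5, hφ, ← br_mul hDp (he.fixed.mono hDT) hθD, ← h1.commute he.toCIdem, h2, ← h5]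
        exact h0
      · rw [h5, ← hbr, ← br_mul hDp ((isCentral_idem hM B).isFixed D) (he.fixed.mono hDT), h4, ← h5]
        exact h0
    exact (h7.symm.trans hM ((PI.mapSet hM _ (isInt_setIdem hM hcL)).trans hM h6)).trans hM h3

end BT
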