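import Cfsg.Agent.Lib.Block.UnionRank
import Cfsg.Agent.Lib.Block.FongRed
import Cfsg.Agent.Lib.Block.KerPairs
import Cfsg.Agent.Lib.Char.TripleIso
import Cfsg.Agent.Lib.Char.OkuWaj

/-!
# Perfect isometries with positive signs: composition, induction, character triples
-/

set_option autoImplicit false
set_option linter.unusedSectionVars false
set_option linter.style.haveILetI false

namespace BT

open Cfsg CT GT
open scoped MonoidAlgebra ComplexConjugate Pointwise

variable {p : ℕ} [Fact p.Prime] {M : Ideal AlgInt} (hM : IsPModular p M)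
variable {G : Type*} [Group G] [Finite G] {H : Type*} [Group H] [Finite H]
  {L : Type*} [Group L] [Finite L]

theorem avg_mem_locRing [Fintype G] {F : G → ℂ} (hF : IsClassFunction G F)
    (h : ∀ y, F y / (Nat.card (Subgroup.centralizer ({y} : Set G)) : ℂ) ∈ locRing hM) :
    (Nat.card G : ℂ)⁻¹ * ∑ y, F y ∈ locRing hM := by
  classical
  have := Fintype.ofFinite (ConjClasses G)
  have hz : IsCentral (ofFun F : ℂ[G]) := fun a b => by
    rw [coeff_ofFun, coeff_ofFun]; exact hF b a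
  have h1 := omega_eq_sum_conjClasses (χ := fun _ => (1 : ℂ)) (fun _ _ => rfl) hz
  rw [omega_def, ev_eq_sum] at h1
  simp only [coeff_ofFun, mul_one, div_one, centralChar] at h1
  rw [h1, Finset.mul_sum]
  refine sum_mem fun c _ => ?_
  convert h (Quotient.out c) using 1
  rw [← (Subgroup.centralizer ({Quotient.out c} : Set G)).index_mul_card]
  have h2 : ((Subgroup.centralizer ({Quotient.out c} : Set G)).index : ℂ) ≠ 0 :=
    Nat.cast_ne_zero.2 Subgroup.index_ne_zero_of_finite
  have h3 : (Nat.card (Subgroup.centralizer ({Quotient.out c} : Set G)) : ℂ) ≠ 0 :=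
    card_cast_ne_zero
  push_cast
  field_simp

omit [Finite G] in
theorem centralizer_inv_eq (x : G) :
    Subgroup.centralizer ({x⁻¹} : Set G) = Subgroup.centralizer ({x} : Set G) := by
  ext y
  simp only [Subgroup.mem_centralizer_singleton_iff]
  exact ⟨fun h => (Commute.inv_right_iff.1 h : Commute y x), fun h =>
    (Commute.inv_right (h : Commute y x))⟩

omit [Fact p.Prime] [Finite G] [Finite H] in
theorem perf_swap {μ : G → H → ℂ} (h : IsPerfectFun p M μ) :
    IsPerfectFun p M fun y x => μ x y := fun y x =>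
  ⟨(h x y).2.1, (h x y).1, (h x y).2.2.imp Iff.symm id⟩

omit [Fact p.Prime] [Finite G] [Finite H] in
theorem perf_inv {μ : G → H → ℂ} (h : IsPerfectFun p M μ) :
    IsPerfectFun p M fun x y => μ x⁻¹ y := fun x y => by
  have := h x⁻¹ y
  rwa [centralizer_inv_eq, isPRegular_inv] at this

include hM in
theorem perf_comp [Fintype H] {μ : G → H → ℂ} {ν : H → L → ℂ} (hμ : IsPerfectFun p M μ)
    (hν : IsPerfectFun p M ν) (cμ : ∀ x, IsClassFunction H (μ x))
    (cν : ∀ z, IsClassFunction H fun y => ν y z) :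
    IsPerfectFun p M fun x z => (Nat.card H : ℂ)⁻¹ * ∑ y, μ x y * ν y z := by
  intro x z
  refine ⟨?_, ?_, ?_⟩
  · have := avg_mem_locRing hM (F := fun y => μ x y /
      (Nat.card (Subgroup.centralizer ({x} : Set G)) : ℂ) * ν y z)
      (fun a b => by simp only [cμ x a b, cν z a b]) fun y => by
        rw [mul_div_assoc]; exact mul_mem (hμ x y).1 (hν y z).1
    rw [← mem_locRing hM]
    convert this using 1
    simp only [div_eq_mul_inv, Finset.mul_sum, Finset.sum_mul]
    exact Finset.sum_congr rfl fun _ _ => by ring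
  · have := avg_mem_locRing hM (F := fun y => μ x y * (ν y z /
      (Nat.card (Subgroup.centralizer ({z} : Set L)) : ℂ)))
      (fun a b => by simp only [cμ x a b, cν z a b]) fun y => by
        rw [mul_div_right_comm]; exact mul_mem (hμ x y).2.1 (hν y z).2.1
    rw [← mem_locRing hM]
    convert this using 1
    simp only [div_eq_mul_inv, Finset.mul_sum, Finset.sum_mul]
    exact Finset.sum_congr rfl fun _ _ => by ring
  · by_cases h : IsPRegular p x ↔ IsPRegular p z
    · exact Or.inl h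
    · refine Or.inr ?_
      beta_reduce
      rw [Finset.sum_eq_zero fun y _ => ?_, mul_zero]
      rcases (hμ x y).2.2 with h1 | h1
      · rcases (hν y z).2.2 with h2 | h2
        · exact absurd (h1.trans h2) h
        · rw [h2, mul_zero]
      · rw [h1, zero_mul]

theorem perf_id {A : Set (IrrCharacter G)} (hA : IsInt hM (setIdem A)) :
    IsPerfectFun p M fun x y => ∑ χ ∈ bset A, χ.1 x * χ.1 y := by
  classical
  have h1 : ∀ x y : G, (∑ χ ∈ bset A, χ.1 x * χ.1 y) /
      (Nat.card (Subgroup.centralizer ({x} : Set G)) : ℂ) ∈ locRing hM := fun x y => by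
    have h2 : IsInt hM (setIdem A * classSum ℂ x) :=
      (intAlg hM G).mul_mem hA (isInt_classSum hM x)
    convert h2 y⁻¹ using 1
    rw [((isCentral_setIdem A).mul (isCentral_classSum x)).coeff_eq_sum_omega, bset_eq,
      Finset.sum_filter, Finset.sum_div, Finset.mul_sum]
    refine Finset.sum_congr rfl fun χ _ => ?_
    rw [omega_mul χ (isCentral_setIdem A), omega_setIdem, omega_classSum (irr_isClassFunction χ),
      centralChar, (irr_isCharacter χ).apply_inv, Complex.conj_conj,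
      ← (Subgroup.centralizer ({x} : Set G)).index_mul_card]
    have h3 : ((Subgroup.centralizer ({x} : Set G)).index : ℂ) ≠ 0 :=
      Nat.cast_ne_zero.2 Subgroup.index_ne_zero_of_finite
    have h4 : (Nat.card (Subgroup.centralizer ({x} : Set G)) : ℂ) ≠ 0 := card_cast_ne_zero
    have h5 := irr_apply_one_ne_zero χ
    split_ifs
    · push_cast
      field_simp
    · simp
  have h0 : ∀ x y : G, IsPRegular p x → ¬ IsPRegular p y →
      ∑ χ ∈ bset A, χ.1 x * χ.1 y = 0 := fun x y hx hy => by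
    rw [sum_bset_eq_sum_blocks hM hA]
    refine Finset.sum_eq_zero fun B _ => ?_
    split_ifs
    · have := weak_block_orthogonality hM B.2 hx (y := y⁻¹) (by rwa [orderOf_inv, ← not_not (a := _ ∣ _)])
      simp only [(irr_isCharacter _).apply_inv, Complex.conj_conj] at this
      rw [bset_eq, this]
    · rfl
  intro x y
  refine ⟨h1 x y, ?_, ?_⟩
  · rw [← mem_locRing hM]; simpa only [mul_comm] using h1 y x
  · by_cases hx : IsPRegular p x <;> by_cases hy : IsPRegular p y
    · exact Or.inl (iff_of_true hx hy)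
    · exact Or.inr (h0 x y hx hy)
    · exact Or.inr (by simpa only [mul_comm] using h0 y x hy hx)
    · exact Or.inl (iff_of_false hx hy)

/-- A perfect isometry from `c` onto `B` all of whose signs are positive. -/
def PI (p : ℕ) (M : Ideal AlgInt) (c : Set (IrrCharacter H)) (B : Set (IrrCharacter G)) : Prop :=
  ∃ I : IrrCharacter H → IrrCharacter G, Set.BijOn I c B ∧
    IsPerfectFun p M fun x y => ∑ η ∈ bset c, (I η).1 x * η.1 y

theorem sum_bset_bijOn {A : Type*} [AddCommMonoid A] {c : Set (IrrCharacter H)}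
    {B : Set (IrrCharacter G)} {I : IrrCharacter H → IrrCharacter G} (h : Set.BijOn I c B)
    (F : IrrCharacter G → A) : ∑ η ∈ bset c, F (I η) = ∑ χ ∈ bset B, F χ :=
  Finset.sum_nbij I (fun _ hη => mem_bset.2 (h.mapsTo (mem_bset.1 hη)))
    (fun _ h1 _ h2 e => h.injOn (mem_bset.1 h1) (mem_bset.1 h2) e)
    (fun χ hχ => by
      obtain ⟨η, h1, h2⟩ := h.surjOn (mem_bset.1 hχ)
      exact ⟨η, mem_bset.2 h1, h2⟩) fun _ _ => rfl

theorem avg_kernel_mul [Fintype H] {c : Set (IrrCharacter H)} (a : IrrCharacter H → ℂ)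
    {η : IrrCharacter H} (hη : η ∈ c) :
    (Nat.card H : ℂ)⁻¹ * ∑ y, (∑ ζ ∈ bset c, a ζ * ζ.1 y) * η.1 y⁻¹ = a η := by
  classical
  have : ∀ ζ : IrrCharacter H, (Nat.card H : ℂ)⁻¹ * ∑ y, a ζ * ζ.1 y * η.1 y⁻¹ =
      if ζ = η then a ζ else 0 := fun ζ => by
    have h := ip_irr ζ η
    rw [ip_def] at h
    simp only [mul_assoc, ← Finset.mul_sum, (irr_isCharacter η).apply_inv]
    rw [mul_left_comm, h]
    split_ifs <;> simp
  simp only [Finset.sum_mul]
  rw [Finset.sum_comm, Finset.mul_sum]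
  simp only [this]
  rw [Finset.sum_ite_eq', if_pos (mem_bset.2 hη)]

theorem isClassFunction_kernel {c : Set (IrrCharacter H)} (a : IrrCharacter H → ℂ) :
    IsClassFunction H fun y => ∑ ζ ∈ bset c, a ζ * ζ.1 y := fun g h =>
  Finset.sum_congr rfl fun ζ _ => by rw [irr_isClassFunction ζ g h]

theorem exists_bijOn_of_rel {α β : Type*} [Nonempty β] {s : Set α} {t : Set β}
    (R : α → β → Prop) (h1 : ∀ a ∈ s, ∃ b ∈ t, R a b) (h2 : ∀ b ∈ t, ∃ a ∈ s, R a b)
    (h3 : ∀ a a' b, R a b → R a' b → a = a') (h4 : ∀ a b b', R a b → R a b' → b = b') :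
    ∃ I : α → β, Set.BijOn I s t ∧ ∀ a ∈ s, R a (I a) := by
  choose! I hI hR using h1
  refine ⟨I, ⟨hI, fun a ha a' ha' e => h3 a a' _ (hR a ha) (e ▸ hR a' ha'), fun b hb => ?_⟩, hR⟩
  obtain ⟨a, ha, h⟩ := h2 b hb
  exact ⟨a, ha, h4 a _ _ (hR a ha) h⟩

namespace PI

variable {c : Set (IrrCharacter H)} {B : Set (IrrCharacter G)} {d : Set (IrrCharacter L)}

omit [Fact p.Prime] in
theorem symm (h : PI p M c B) : PI p M B c := by
  obtain ⟨I, h1, h2⟩ := h
  have : Nonempty (IrrCharacter H) := ⟨irrOne H⟩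
  refine ⟨Function.invFunOn I c, h1.symm h1.invOn_invFunOn.symm, ?_⟩
  convert perf_swap h2 using 3 with y x
  rw [← sum_bset_bijOn h1]
  exact Finset.sum_congr rfl fun η hη => by
    rw [h1.invOn_invFunOn.1 (mem_bset.1 hη), mul_comm]

include hM in
theorem trans (h' : PI p M d c) (h : PI p M c B) : PI p M d B := by
  obtain ⟨I, h1, h2⟩ := h
  obtain ⟨J, h3, h4⟩ := h'
  have := Fintype.ofFinite H
  refine ⟨I ∘ J, h1.comp h3, ?_⟩
  convert perf_comp hM h2 (perf_inv h4) (fun x => isClassFunction_kernel _) fun z g h =>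
    Finset.sum_congr rfl fun ζ _ => by
      rw [← irr_isClassFunction (J ζ) g⁻¹ h]; simp [mul_assoc] using 3 with x z
  simp only [Finset.mul_sum (s := bset d)]
  rw [Finset.sum_comm, Finset.mul_sum]
  refine Finset.sum_congr rfl fun ζ hζ => ?_
  simp only [← mul_assoc, ← Finset.sum_mul]
  rw [avg_kernel_mul (fun η => (I η).1 x) (h3.mapsTo (mem_bset.1 hζ))]
  rfl

omit [Fact p.Prime] in
theorem card_eq (h : PI p M c B) : Nat.card c = Nat.card B := by
  obtain ⟨I, h1, -⟩ := h
  exact Nat.card_congr h1.equiv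

theorem blockRank_le (h : PI p M c B) : blockRank p B ≤ blockRank p c := by
  obtain ⟨I, h1, h2⟩ := h
  have := Fintype.ofFinite H
  let F : (H → ℂ) →ₗ[ℂ] (G → ℂ) :=
    { toFun := fun f => pRegularPart p fun x =>
        (Nat.card H : ℂ)⁻¹ * ∑ y, (∑ η ∈ bset c, (I η).1 x * η.1 y) * f y⁻¹
      map_add' := fun f g => by
        rw [← pRegularPart_add]
        congr 1
        funext x
        simp only [Pi.add_apply, mul_add, Finset.sum_add_distrib]
      map_smul' := fun a f => by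
        rw [RingHom.id_apply, ← pRegularPart_smul]
        congr 1
        funext x
        simp only [Pi.smul_apply, smul_eq_mul, Finset.mul_sum]
        exact Finset.sum_congr rfl fun _ _ => by ring }
  have hF : ∀ η ∈ c, F (pRegularPart p η.1) = pRegularPart p (I η).1 := fun η hη => by
    refine pRegularPart_eq_iff.2 fun x hx => ?_
    rw [← avg_kernel_mul (fun η => (I η).1 x) hη]
    congr 1
    refine Finset.sum_congr rfl fun y _ => ?_
    by_cases hy : p ∣ orderOf y
    · have h3 := ((h2 x y).2.2.resolve_left fun h => h.1 hx hy)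
      beta_reduce at h3
      rw [h3, zero_mul, zero_mul]
    · rw [pRegularPart_of_not_dvd _ (by rwa [orderOf_inv])]
  rw [blockRank, blockRank]
  refine le_trans (Submodule.finrank_mono ?_) (Submodule.finrank_map_le F _)
  rw [Submodule.span_le]
  rintro _ ⟨χ, hχ, rfl⟩
  obtain ⟨η, hη, rfl⟩ := h1.surjOn hχ
  exact ⟨_, Submodule.subset_span ⟨η, hη, rfl⟩, hF η hη⟩

theorem blockRank_eq (h : PI p M c B) : blockRank p c = blockRank p B :=
  le_antisymm h.symm.blockRank_le h.blockRank_le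

omit [Fact p.Prime] in
theorem exists_isPerfectIsometry (h : PI p M c B) : ∃ I ε, IsPerfectIsometry p M c B I ε := by
  obtain ⟨I, h1, h2⟩ := h
  refine ⟨I, fun _ => 1, h1, fun _ _ => Or.inl rfl, ?_⟩
  convert h2 using 3 with x y
  rw [signedBijectionKernel, finsum_mem_eq_sum_bset]
  simp

end PI

theorem card_centralizer_dvd_mul (f : H →* G) (t : H) :
    Nat.card (Subgroup.centralizer ({t} : Set H)) ∣
      Nat.card (Subgroup.centralizer ({f t} : Set G)) * Nat.card f.ker := by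
  rw [← card_map_mul_card_inf_ker f]
  refine mul_dvd_mul (Subgroup.card_dvd_of_le ?_) (Subgroup.card_dvd_of_le inf_le_left)
  rintro _ ⟨y, hy, rfl⟩
  rw [Subgroup.mem_centralizer_singleton_iff, ← map_mul, ← map_mul,
    Subgroup.mem_centralizer_singleton_iff.1 hy]

theorem card_centralizer_map_dvd {f : H →* G} (hf : Function.Surjective f)
    (hk : f.ker ≤ Subgroup.center H) (t : H) :
    Nat.card (Subgroup.centralizer ({f t} : Set G)) ∣
      Nat.card (Subgroup.centralizer ({t} : Set H)) := by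
  set D := (Subgroup.centralizer ({f t} : Set G)).comap f with hD
  have h1 : ∀ y : D, (y : H) * t * (y : H)⁻¹ * t⁻¹ ∈ f.ker := fun y => by
    have := Subgroup.mem_centralizer_singleton_iff.1 (Subgroup.mem_comap.1 y.2)
    rw [MonoidHom.mem_ker, map_mul, map_mul, map_mul, map_inv, map_inv, this]
    group
  let φ : D →* H := MonoidHom.mk' (fun y => (y : H) * t * (y : H)⁻¹ * t⁻¹) fun a b => by
    have := Subgroup.mem_center_iff.1 (hk (h1 b)) (t * (a : H)⁻¹ * t⁻¹)
    calc ((a * b : D) : H) * t * ((a * b : D) : H)⁻¹ * t⁻¹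
        = a * ((b * t * (b : H)⁻¹ * t⁻¹) * (t * (a : H)⁻¹ * t⁻¹)) := by push_cast; group
      _ = _ := by rw [← this]; group
  have h2 : φ.range ≤ f.ker := by
    rintro _ ⟨y, rfl⟩
    exact h1 y
  have h3 : φ.ker.map D.subtype ≤ Subgroup.centralizer ({t} : Set H) := by
    rintro _ ⟨y, hy, rfl⟩
    have : (y : H) * t * (y : H)⁻¹ * t⁻¹ = 1 := hy
    rw [Subgroup.mem_centralizer_singleton_iff]
    rwa [mul_inv_eq_one, mul_inv_eq_iff_eq_mul] at this
  have h4 := Subgroup.card_dvd_of_le h3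
  rw [Subgroup.card_map_of_injective D.subtype_injective] at h4
  have h5 := mul_dvd_mul h4 (Subgroup.card_dvd_of_le h2)
  rw [← Subgroup.index_ker, Subgroup.card_mul_index, hD, card_comap_of_surjective hf] at h5
  exact Nat.dvd_of_mul_dvd_mul_right Nat.card_pos h5

theorem div_mem_of_dvd_mul {a : ℂ} {m n k : ℕ} (hn : n ≠ 0) (h : m ∣ n * k) (hk : ¬ p ∣ k)
    (ha : a / (n : ℂ) ∈ locRing hM) : a / (m : ℂ) ∈ locRing hM := by
  obtain ⟨r, hr⟩ := h
  have hk0 : k ≠ 0 := by rintro rfl; exact hk (dvd_zero p)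
  have hm0 : m ≠ 0 := by rintro rfl; exact mul_ne_zero hn hk0 (by rw [hr, zero_mul])
  have h1 : (n : ℂ) * k = m * r := by exact_mod_cast hr
  have h2 : (n : ℂ) ≠ 0 := Nat.cast_ne_zero.2 hn
  have h3 : (k : ℂ) ≠ 0 := Nat.cast_ne_zero.2 hk0
  have h4 : (m : ℂ) ≠ 0 := Nat.cast_ne_zero.2 hm0
  convert mul_mem (mul_mem ha (natCast_mem _ r)) (inv_natCast_mem_locRing hM hk) using 1
  field_simp
  rw [mul_assoc, h1, mul_assoc]

theorem card_transporter (x g : G) : Nat.card {y : G // g⁻¹ * x * g = y⁻¹ * x * y} =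
      Nat.card (Subgroup.centralizer ({x} : Set G)) ∧
    Nat.card {y : G // g⁻¹ * x * g = y⁻¹ * x * y} =
      Nat.card (Subgroup.centralizer ({g⁻¹ * x * g} : Set G)) := by
  constructor
  · refine Nat.card_congr ((Equiv.mulRight g⁻¹).subtypeEquiv fun y => ?_)
    rw [Subgroup.mem_centralizer_singleton_iff, Equiv.coe_mulRight]
    constructor
    · intro h
      calc y * g⁻¹ * x = y * (g⁻¹ * x * g) * g⁻¹ := by group
        _ = _ := by rw [h]; group
    · intro h
      calc g⁻¹ * x * g = y⁻¹ * (y * g⁻¹ * x) * g := by group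
        _ = _ := by rw [h]; group
  · refine Nat.card_congr ((Equiv.mulLeft g⁻¹).subtypeEquiv fun y => ?_)
    rw [Subgroup.mem_centralizer_singleton_iff, Equiv.coe_mulLeft]
    constructor
    · intro h
      calc g⁻¹ * y * (g⁻¹ * x * g) = g⁻¹ * y * (y⁻¹ * x * y) := by rw [h]
        _ = _ := by group
    · intro h
      calc g⁻¹ * x * g = y⁻¹ * g * (g⁻¹ * y * (g⁻¹ * x * g)) := by group
        _ = _ := by rw [h]; group

include hM in
theorem perf_transporter (f : H →* G) (hf : ¬ p ∣ Nat.card f.ker) :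
    IsPerfectFun p M fun x t => (Nat.card {y : G // f t = y⁻¹ * x * y} : ℂ) := by
  intro x t
  by_cases h : ∃ g, f t = g⁻¹ * x * g
  · obtain ⟨g, hg⟩ := h
    obtain ⟨h1, h2⟩ := card_transporter x g
    rw [← hg] at h1 h2
    refine ⟨?_, ?_, Or.inl ?_⟩
    · beta_reduce
      rw [h1, div_self card_cast_ne_zero]
      exact (locRing hM).one_mem
    · beta_reduce
      refine div_mem_of_dvd_mul hM Nat.card_pos.ne' (card_centralizer_dvd_mul f t) hf ?_
      rw [h2, div_self card_cast_ne_zero]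
      exact (locRing hM).one_mem
    · rw [← isPRegular_map_iff_of_ker hf, hg, ← isPRegular_conj g⁻¹, inv_inv]
  · have : IsEmpty {y : G // f t = y⁻¹ * x * y} := ⟨fun y => h ⟨y.1, y.2⟩⟩
    simp only [Nat.card_of_isEmpty, Nat.cast_zero, zero_div, or_true, and_true, and_self]
    exact (locRing hM).zero_mem

theorem indHom_eq_sum_transporter [Fintype H] (f : H →* G) (θ : H → ℂ) (x : G) :
    indHom f θ x =
      (Nat.card H : ℂ)⁻¹ * ∑ t, (Nat.card {y : G // f t = y⁻¹ * x * y} : ℂ) * θ t := by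
  classical
  have := Fintype.ofFinite G
  rw [indHom_def, Finset.sum_comm]
  congr 1
  refine Finset.sum_congr rfl fun t _ => ?_
  rw [← Finset.sum_filter, Finset.sum_const, nsmul_eq_mul, Nat.card_eq_fintype_card,
    Fintype.card_subtype]

theorem PI.of_indHom {c : Set (IrrCharacter H)} {B : Set (IrrCharacter G)} (f : H →* G)
    (hf : ¬ p ∣ Nat.card f.ker) (hc : IsInt hM (setIdem c))
    (h1 : ∀ η ∈ c, ∃ χ ∈ B, χ.1 = indHom f η.1) (h2 : ∀ χ ∈ B, ∃ η ∈ c, χ.1 = indHom f η.1)
    (h3 : ∀ η ∈ c, ∀ η' ∈ c, indHom f η.1 = indHom f η'.1 → η = η') : PI p M c B := by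
  have := Fintype.ofFinite H
  obtain ⟨I, hI, hR⟩ := exists_bijOn_of_rel (s := c) (t := B) (β := IrrCharacter G)
    (fun η χ => η ∈ c ∧ χ.1 = indHom f η.1)
    (fun η hη => (h1 η hη).imp fun χ h => ⟨h.1, hη, h.2⟩)
    (fun χ hχ => (h2 χ hχ).imp fun η h => ⟨h.1, h.1, h.2⟩)
    (fun η η' χ h h' => h3 η h.1 η' h'.1 (h.2.symm.trans h'.2))
    fun η χ χ' h h' => Subtype.ext (h.2.trans h'.2.symm)
  refine ⟨I, hI, ?_⟩
  convert perf_comp hM (perf_transporter hM f hf) (perf_id hM hc) (fun x g h => ?_)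
    (fun z g h => Finset.sum_congr rfl fun ζ _ => by rw [irr_isClassFunction ζ g h])
    using 3 with x z
  · simp only [Finset.mul_sum (s := bset c)]
    rw [Finset.sum_comm, Finset.mul_sum]
    refine Finset.sum_congr rfl fun η hη => ?_
    rw [(hR η (mem_bset.1 hη)).2, indHom_eq_sum_transporter, mul_assoc, Finset.sum_mul]
    simp only [mul_assoc]
  · congr 1
    refine Nat.card_congr ((Equiv.mulRight (f h)).subtypeEquiv fun y => ?_)
    rw [map_mul, map_mul, map_inv, Equiv.coe_mulRight]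
    constructor
    · intro e
      calc f g = (f h)⁻¹ * (f h * f g * (f h)⁻¹) * f h := by group
        _ = _ := by rw [e]; group
    · intro e
      rw [e]; group

theorem PI.mapSet {c : Set (IrrCharacter H)} (e : H ≃* G) (hc : IsInt hM (setIdem c)) :
    PI p M c (mapSet e c) := by
  have h0 : ∀ η : IrrCharacter H, (irrCongr e η).1 = indHom e.toMonoidHom η.1 := fun η =>
    (indHom_mulEquiv e (irr_isClassFunction η)).symm
  refine PI.of_indHom hM e.toMonoidHom ?_ hc
    (fun η hη => ⟨_, (irrCongr_mem_mapSet_iff e c η).2 hη, h0 η⟩) (fun χ hχ => ?_)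
    fun η _ η' _ h => (irrCongr e).injective (Subtype.ext (by rw [h0, h0, h]))
  · rw [(MonoidHom.ker_eq_bot_iff _).2 e.injective, Subgroup.card_bot]
    exact (Fact.out : p.Prime).not_dvd_one
  · rw [mapSet_eq_image] at hχ
    obtain ⟨η, hη, rfl⟩ := hχ
    exact ⟨η, hη, h0 η⟩

section Fong

variable {C T : Subgroup G} {θ : IrrCharacter C}

theorem fong_setup [C.Normal] (hC : ¬ p ∣ Nat.card C) (hCT : C ≤ T)
    (hT : ∀ g : G, g ∈ T ↔ cj g (sidem hM C {θ}) = sidem hM C {θ})
    {B' : Set (IrrCharacter T)} (hB' : IsPBlock M B') (h1 : sidem hM T B' * sidem hM C {θ} ≠ 0) :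
    (∀ B, IsPBlock M B → idem hM B * sidem hM T B' ≠ 0 → IsInducedBlock M T B' B) ∧
    ∀ B, IsInducedBlock M T B' B →
      PI p M B' B ∧ idem hM B * sidem hM T B' = sidem hM T B' := by
  have hb := isPBlock_singleton_of_not_dvd hM hC θ
  have hT' : ∀ g : G, g ∈ T ↔ g • ({θ} : Set _) = {θ} := fun g =>
    (hT g).trans (cj_sidem_eq_iff hM hb g)
  have hc : CoversLe hCT B' {θ} := (coversLe_iff_mul hM hCT hB' hb).2 h1
  have hst := fong_inertia_le hM hb hT' rfl
  have : (C.subgroupOf T).Normal := inferInstance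
  have hl : ∀ ψ ∈ B', LiesOverLe hCT ψ.1 θ.1 := fun ψ hψ => by
    obtain ⟨θ', rfl, h⟩ := hc.exists_liesUnderLe hM hB' hb hψ
    exact h
  have key : ∀ B, IsPBlock M B → idem hM B * sidem hM T B' ≠ 0 → IsInducedBlock M T B' B := by
    intro B hB h
    obtain ⟨χ, hχ, ψ, hψ, h2⟩ := (covers_iff_mul hM hB hB').2 h
    exact isInducedBlock_of_mem_of_ind hM hB' hψ hB hχ
      (cliffordCorr_ind_eq_of_liesOver hst (hl ψ hψ) h2).symm
  refine ⟨key, fun B hB => ⟨?_, ?_⟩⟩
  · have h2 := fong_mem_iff hM hb hT' hc hB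
    simp only [ind_eq_indHom] at h2
    refine PI.of_indHom hM T.subtype ?_ (isInt_setIdem hM hB') (fun ψ hψ => ?_)
      (fun χ hχ => (h2 χ).1 hχ) fun ψ hψ ψ' hψ' e => ?_
    · rw [Subgroup.ker_subtype, Subgroup.card_bot]
      exact (Fact.out : p.Prime).not_dvd_one
    · exact ⟨⟨_, cliffordCorr_isIrr hst (hl ψ hψ)⟩,
        (h2 _).2 ⟨ψ, hψ, ind_eq_indHom T ψ.1⟩, ind_eq_indHom T ψ.1⟩
    · exact cliffordCorr_injective hst (hl ψ hψ) (hl ψ' hψ') (by rwa [ind_eq_indHom, ind_eq_indHom])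
  · conv_rhs => rw [← one_mul (sidem hM T B'), ← sum_idem hM, Finset.sum_mul]
    symm
    refine Finset.sum_eq_single_of_mem (⟨B, hB.2.1⟩ : Bl M G) (Finset.mem_univ _)
      fun B₂ _ hne => ?_
    by_contra h
    exact hne (Subtype.ext (isInducedBlock_unique hM (key _ B₂.2 h) hB))

theorem PI.of_fong_le {N : Subgroup G} (hC : ¬ p ∣ Nat.card C) (hCT : C ≤ T) (hTN : T ≤ N)
    (hN : N ≤ Subgroup.normalizer (C : Set G))
    (hT : ∀ g ∈ N, g ∈ T ↔ cj g (sidem hM C {θ}) = sidem hM C {θ})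
    {B' : Set (IrrCharacter T)} (hB' : IsPBlock M B') (h1 : sidem hM T B' * sidem hM C {θ} ≠ 0)
    {B : Set (IrrCharacter N)} (hB : IsPBlock M B) (h2 : sidem hM N B * sidem hM T B' ≠ 0) :
    PI p M B' B := by
  have := normal_subgroupOf_of_le_normalizer hN
  have hCN := hCT.trans hTN
  have e1 : emb N (sidem hM (C.subgroupOf N) {irrOf hCN θ}) = sidem hM C {θ} := by
    rw [← emb_sidem_subgroupOf hM hCN, mapSet_eq_image, Set.image_singleton]
    rfl
  have e2 := emb_sidem_subgroupOf hM hTN B'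
  have hB'' := isPBlock_mapSet (Subgroup.subgroupOfEquivOfLe hTN).symm hB'
  obtain ⟨h3, h4⟩ := fong_setup hM (C := C.subgroupOf N) (T := T.subgroupOf N) (θ := irrOf hCN θ)
    (by rwa [card_subgroupOf_of_le hCN]) (subgroupOf_le_subgroupOf hCT N)
    (fun g => by
      rw [Subgroup.mem_subgroupOf, hT g g.2, ← (emb_injective N).eq_iff, ← cj_emb, e1]) hB''
    (by rw [Ne, ← (emb_injective N).eq_iff, map_mul, map_zero, e1, e2]; exact h1)
  refine (PI.mapSet hM _ (isInt_setIdem hM hB')).trans hM (h4 B (h3 B hB ?_)).1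
  rw [Ne, ← (emb_injective N).eq_iff, map_mul, map_zero, e2]
  exact h2

end Fong

theorem eq_of_pow_eq_one_of_sub_mem {a b : ℂ} {m : ℕ} (hm : ¬ p ∣ m) (ha : a ^ m = 1)
    (hb : b ^ m = 1) (h : a - b ∈ locIdeal hM) : a = b := by
  have hm0 : m ≠ 0 := by rintro rfl; exact hm (dvd_zero p)
  have hb0 : b ≠ 0 := by rintro rfl; rw [zero_pow hm0] at hb; exact zero_ne_one hb
  have h1 : b⁻¹ ^ m = 1 := by rw [inv_pow, hb, inv_one]
  have := eq_one_of_sub_one_mem_locIdeal hM hm (ζ := a * b⁻¹) (by rw [mul_pow, ha, h1, mul_one])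
    (by
      convert mul_mem_locIdeal_right hM h
        (mem_locRing_of_isIntegral hM (isIntegral_of_pow_eq_one hm0 h1)) using 1
      field_simp)
  rwa [mul_inv_eq_one₀ hb0] at this

omit [Fact p.Prime] in
theorem irr_central_div_pow (χ : IrrCharacter G) {z : G} (hz : z ∈ Subgroup.center G) (n : ℕ) :
    (χ.1 z / χ.1 1) ^ n = χ.1 (z ^ n) / χ.1 1 := by
  induction n with
  | zero => rw [pow_zero, pow_zero, div_self (irr_apply_one_ne_zero χ)]
  | succ n ih => rw [pow_succ', pow_succ', irr_apply_central_mul χ hz, ih, mul_div_assoc]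

include hM in
theorem central_div_eq_of_sameBlock {χ ψ : IrrCharacter G} (h : SameBlock M χ.1 ψ.1) {z : G}
    (hz : z ∈ Subgroup.center G) (hr : IsPRegular p z) : χ.1 z / χ.1 1 = ψ.1 z / ψ.1 1 := by
  have h0 : ∀ φ : IrrCharacter G, (φ.1 z / φ.1 1) ^ orderOf z = 1 := fun φ => by
    rw [irr_central_div_pow φ hz, pow_orderOf_eq_one, div_self (irr_apply_one_ne_zero φ)]
  refine eq_of_pow_eq_one_of_sub_mem hM hr (h0 χ) (h0 ψ) ?_
  have h1 : Subgroup.centralizer ({z} : Set G) = ⊤ :=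
    eq_top_iff.2 fun g _ => Subgroup.mem_centralizer_singleton_iff.2 (Subgroup.mem_center_iff.1 hz g)
  have h2 := h z
  rwa [centralChar, centralChar, h1, Subgroup.index_top, Nat.cast_one, one_mul, one_mul] at h2

include hM in
/-- Perfect isometry coming from an isomorphism of character triples over `p'`-groups. -/
theorem PI.of_triple {Δ A Q : Type*} [Group Δ] [Finite Δ] [Group A] [Finite A] [Group Q]
    [Finite Q] {π : Δ →* A} (hπ : Function.Surjective π) (hZ : π.ker ≤ Subgroup.center Δ)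
    (hZp : ¬ p ∣ Nat.card π.ker) {σ : Δ →* Q} (hσ : Function.Surjective σ)
    (hJp : ¬ p ∣ Nat.card σ.ker) {τ : Δ → ℂ} (hτ : IsCharacter Δ τ) {θ : IrrCharacter σ.ker}
    (hres : res σ.ker τ = θ.1) {lam : Δ → ℂ} (hlam : ∀ z ∈ π.ker, ∀ x, τ (z * x) = lam z * τ x)
    {S : Set (IrrCharacter Q)}
    (hS : ∀ β, β ∈ S ↔ ∀ z ∈ π.ker, lam z * (β.1 (σ z) / β.1 1) = 1)
    {B : Set (IrrCharacter A)} (hB : ∀ χ, χ ∈ B ↔ LiesOver σ.ker (fun x => χ.1 (π x)) θ.1) :
    PI p M S B := by
  have hc : ∀ z ∈ π.ker, σ z ∈ Subgroup.center Q := fun z hz => by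
    rw [Subgroup.mem_center_iff]
    intro q
    obtain ⟨x, rfl⟩ := hσ q
    rw [← map_mul, ← map_mul, Subgroup.mem_center_iff.1 (hZ hz) x]
  have hSi : IsInt hM (setIdem S) := isInt_setIdem_of_closed hM fun β hβ γ h =>
    (hS γ).2 fun z hz => by
      rw [← central_div_eq_of_sameBlock hM h (hc z hz) ((isPRegular_of_mem hZp hz).map σ)]
      exact (hS β).1 hβ z hz
  have hk : ∀ β : IrrCharacter Q, σ.ker ≤ ker (irrComp σ hσ β).1 := fun β =>
    monoidHom_ker_le_ker_comp σ β.1
  have : Nonempty (IrrCharacter A) := ⟨irrOne A⟩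
  have g1 : ∀ β ∈ S, ∃ χ ∈ B, (irrComp π hπ χ).1 = (irrComp σ hσ β).1 * τ := fun β hβ => by
    obtain ⟨χ, hχ⟩ := (exists_irrComp_eq_iff π hπ ⟨_, gallagher_isIrr' hτ hres (hk β)⟩).2
      fun z hz x => by
        have := (hS β).1 hβ z hz
        simp only [Pi.mul_apply, irrComp_apply, map_mul]
        rw [hlam z hz, irr_apply_central_mul β (hc z hz)]
        linear_combination (β.1 (σ x) * τ x) * this
    refine ⟨χ, (hB χ).2 ?_, congrArg Subtype.val hχ⟩
    rw [← irrComp_val π hπ, hχ, LiesOver, res_mul_of_le_ker (hk β), hres, ip_smul_left, ip_irr,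
      if_pos rfl, mul_one]
    exact irr_apply_one_ne_zero _
  have g2 : ∀ χ ∈ B, ∃ β ∈ S, (irrComp π hπ χ).1 = (irrComp σ hσ β).1 * τ := fun χ hχ => by
    obtain ⟨β', h1, h2⟩ := gallagher_surjective' hτ hres (ψ := irrComp π hπ χ) ((hB χ).1 hχ)
    obtain ⟨β, rfl⟩ := (exists_irrComp_eq_iff σ hσ β').2 h1
    refine ⟨β, (hS β).2 fun z hz => ?_, h2⟩
    have h3 := congrFun h2 z
    have h4 := congrFun h2 1
    have h5 := hlam z hz 1
    simp only [irrComp_apply, Pi.mul_apply, map_one, MonoidHom.mem_ker.1 hz, mul_one] at h3 h4 h5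
    have h6 : τ 1 ≠ 0 := by
      have := congrFun hres 1
      rw [res_apply, OneMemClass.coe_one] at this
      rw [this]
      exact irr_apply_one_ne_zero θ
    rw [h4, h5, ← mul_assoc, mul_left_inj' h6] at h3
    rw [mul_div_assoc', mul_comm, ← h3, div_self (irr_apply_one_ne_zero β)]
  obtain ⟨I, hI, hR⟩ := exists_bijOn_of_rel
    (fun β χ => (irrComp π hπ χ).1 = (irrComp σ hσ β).1 * τ) g1 g2
    (fun β β' χ h h' => irrComp_injective σ hσ (Subtype.ext
      (gallagher_injective' hτ hres (hk β) (hk β') (h.symm.trans h'))))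
    fun β χ χ' h h' => irrComp_injective π hπ (Subtype.ext (h.trans h'.symm))
  refine ⟨I, hI, fun a q => ?_⟩
  obtain ⟨x, rfl⟩ := hπ a
  have h1 : ∑ β ∈ bset S, (I β).1 (π x) * β.1 q = τ x * ∑ β ∈ bset S, β.1 (σ x) * β.1 q := by
    rw [Finset.mul_sum]
    refine Finset.sum_congr rfl fun β hβ => ?_
    have := congrFun (hR β (mem_bset.1 hβ)) x
    simp only [irrComp_apply, Pi.mul_apply] at this
    rw [this]
    ring
  obtain ⟨h2, h3, h4⟩ := perf_id hM hSi (σ x) q
  have h5 := mem_locRing_of_isIntegral hM (isIntegral_character_value hτ x)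
  beta_reduce
  rw [h1, mul_div_assoc, mul_div_assoc]
  refine ⟨(locRing hM).mul_mem h5 (div_mem_of_dvd_mul hM Nat.card_pos.ne'
    ((card_centralizer_map_dvd hπ hZ x).trans (card_centralizer_dvd_mul σ x)) hJp h2),
    (locRing hM).mul_mem h5 h3, h4.imp (fun h => ?_) fun h => ?_⟩
  · rw [← h, isPRegular_map_iff_of_ker hZp, isPRegular_map_iff_of_ker hJp]
  · beta_reduce at h
    rw [h, mul_zero]

end BT
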