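import Cfsg.Agent.Lib.Block.DihedralB
import Cfsg.Agent.Lib.Block.CoverPrin
import Cfsg.Agent.Lib.Lin.BrauerSimple
import Cfsg.Agent.Lib.Char.SimpleGrp

/-!
# Brauer: simple groups of order `4 p^a q^b`
-/

set_option autoImplicit false
set_option linter.unusedSectionVars false

namespace BT

open Cfsg CT GT Subgroup
open scoped ComplexConjugate IsMulCommutative

theorem eq_neg_three_of_prime_dvd {y : ℤ} (h4 : y % 4 = 1) (h1 : y ≠ 1)
    (h : ∀ r : ℕ, r.Prime → (r : ℤ) ∣ y + 1 → r = 2) : y = -3 := by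
  obtain ⟨k, hk⟩ : ∃ k, y + 1 = 2 * k := ⟨(y + 1) / 2, by omega⟩
  by_cases h2 : k.natAbs = 1
  · omega
  · obtain ⟨r, hr, h3⟩ := Nat.exists_prime_and_dvd h2
    have h5 := Int.natCast_dvd.2 h3
    obtain rfl := h r hr (hk ▸ h5.mul_left 2)
    omega

theorem klein_arith {p q : ℕ} (hp : p.Prime) (hq : q.Prime) (hpq : p ≠ q) {u v w : ℤ}
    (hu : u % 4 = 1 ∧ u ≠ 1) (hv : v % 4 = 1 ∧ v ≠ 1) (hw : w % 4 = 1 ∧ w ≠ 1)
    (hs : 1 + u + v + w = 0) (hpu : (p : ℤ) ∣ u) (hqu : ¬ (q : ℤ) ∣ u) (hqv : (q : ℤ) ∣ v)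
    (hpv : ¬ (p : ℤ) ∣ v)
    (h : ∀ r : ℕ, r.Prime → (r : ℤ) ∣ w * ((u + 1) * (v + 1) * (w + 1)) → r = 2 ∨ r = p ∨ r = q) :
    w = -3 ∧ (u = -3 ∨ v = -3) := by
  have h1 : ∀ r : ℕ, r.Prime → ¬ (r : ℤ) ∣ 1 := fun r hr h =>
    hr.one_lt.ne' (Nat.dvd_one.1 (by exact_mod_cast h))
  have h3 : ∀ r : ℕ, r.Prime → (r : ℤ) ∣ 3 → r = 3 := fun r hr h =>
    (Nat.prime_dvd_prime_iff_eq hr Nat.prime_three).1 (by exact_mod_cast h)
  obtain rfl : w = -3 := eq_neg_three_of_prime_dvd hw.1 hw.2 fun r hr h2 => by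
    have h4 : (r : ℤ) ∣ u + v := by
      rw [show u + v = -(w + 1) by omega]; exact h2.neg_right
    rcases h r hr ((h2.mul_left _).mul_left _) with h5 | rfl | rfl
    exacts [h5, absurd ((dvd_add_right hpu).1 h4) hpv, absurd ((dvd_add_left hqv).1 h4) hqu]
  refine ⟨rfl, ?_⟩
  rcases h 3 Nat.prime_three (Dvd.dvd.mul_right (by norm_num) _) with h4 | rfl | rfl
  · omega
  · refine Or.inl (eq_neg_three_of_prime_dvd hu.1 hu.2 fun r hr h2 => ?_)
    rcases h r hr (((h2.mul_right _).mul_right _).mul_left _) with h5 | rfl | rfl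
    · exact h5
    · exact absurd ((dvd_add_right hpu).1 h2) (h1 _ hr)
    · rw [show u + 1 = -v + 3 by omega] at h2
      exact absurd (h3 r hr ((dvd_add_right hqv.neg_right).1 h2)).symm hpq
  · refine Or.inr (eq_neg_three_of_prime_dvd hv.1 hv.2 fun r hr h2 => ?_)
    rcases h r hr (((h2.mul_left _).mul_right _).mul_left _) with h5 | rfl | rfl
    · exact h5
    · rw [show v + 1 = -u + 3 by omega] at h2
      exact absurd (h3 r hr ((dvd_add_right hpu.neg_right).1 h2)) hpq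
    · exact absurd ((dvd_add_right hqv).1 h2) (h1 _ hr)

variable {G : Type*} [Group G] [Finite G]

theorem mem_ker_of_degree_three {χ : G → ℂ} (hχ : IsCharacter G χ) (hd : charDegree χ = 3)
    {J y : G} (hJ : orderOf J = 2) (hc : Commute J y) (hy : Odd (orderOf y))
    (hdet : detChar χ y = 1) (h : ∀ k : ℕ, χ (J * y ^ k) = -1) : y ∈ ker χ := by
  have h1 := hχ.exists_eigenvalues_commute hc
  rw [hd, hJ] at h1
  obtain ⟨ε, δ, h1, h2, h3⟩ := h1
  have h4 : detChar χ y = ∏ i, δ i :=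
    hχ.detChar_eq_prod (fun i => ne_zero_of_pow_eq_one' (orderOf_pos y).ne' (h2 i))
      fun k _ => by simpa using h3 0 k
  have h5 : ∀ i, δ i * δ i = 1 → δ i = 1 := fun i h => by
    obtain ⟨m, hm⟩ := hy
    have := h2 i
    rwa [hm, pow_succ, pow_mul, sq, h, one_pow, one_mul] at this
  have e0 := (h3 1 0).symm.trans (by simpa using h 0)
  have e1 := (h3 1 1).symm.trans (by simpa using h 1)
  have e2 := (h3 1 2).symm.trans (by simpa using h 2)
  have e3 := h3 0 1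
  rw [hdet, Fin.prod_univ_three] at h4
  simp only [Fin.sum_univ_three, pow_one, pow_zero, mul_one, one_mul] at e0 e1 e2 e3
  rw [hχ.mem_ker_iff, hχ.apply_one, hd, e3, Nat.cast_ofNat]
  rcases sq_eq_one_iff.1 (h1 0) with a0 | a0 <;> rcases sq_eq_one_iff.1 (h1 1) with a1 | a1 <;>
    rcases sq_eq_one_iff.1 (h1 2) with a2 | a2 <;> rw [a0, a1, a2] at e0 e1 e2
  · norm_num at e0
  · norm_num at e0
  · norm_num at e0
  · have := h5 0 (by
      linear_combination -h4 - δ 0 / 2 * e2 + δ 0 / 2 * (δ 0 + δ 1 + δ 2 + 1) * e1)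
    linear_combination 2 * this - e1
  · norm_num at e0
  · have := h5 1 (by
      linear_combination -h4 - δ 1 / 2 * e2 + δ 1 / 2 * (δ 0 + δ 1 + δ 2 + 1) * e1)
    linear_combination 2 * this - e1
  · have := h5 2 (by
      linear_combination -h4 - δ 2 / 2 * e2 + δ 2 / 2 * (δ 0 + δ 1 + δ 2 + 1) * e1)
    linear_combination 2 * this - e1
  · norm_num at e0

theorem _root_.GT.DihSyl.exists_klein {M : Ideal AlgInt} (hM : IsPModular 2 M) {P : Subgroup G}
    {τ J : G} (D : DihSyl P J τ J 0) {χ₁ χ₂ : IrrCharacter G} (h1 : χ₁ ∈ principalBlock M G)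
    (h2 : χ₂ ∈ principalBlock M G) (n1 : χ₁ ≠ irrOne G) (n2 : χ₂ ≠ irrOne G) (n12 : χ₁ ≠ χ₂) :
    ∃ χ₃, principalBlock M G = {χ | χ.1 = (fun _ => 1) ∨ χ = χ₁ ∨ χ = χ₂ ∨ χ = χ₃} ∧
      χ₃ ≠ irrOne G ∧ χ₁ ≠ χ₃ ∧ χ₂ ≠ χ₃ ∧
      ∀ χ ∈ principalBlock M G, ∃ ε : ℤ, (ε = 1 ∨ ε = -1) ∧ χ.1 J = ε := by
  classical
  choose e he using fun χ : IrrCharacter G => exists_int_apply_of_sq (irr_isCharacter χ) D.J_sq
  have h3 := D.bker_eq hM D.J_mem D.J_ne_one D.J_mem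
  rw [if_pos rfl, if_pos D.J_inv, D.card_S, bker_def] at h3
  have hs : ({irrOne G, χ₁, χ₂} : Finset _) ⊆ bset (principalBlock M G) := fun χ h => by
    simp only [Finset.mem_insert, Finset.mem_singleton] at h
    rcases h with rfl | rfl | rfl
    exacts [mem_bset.2 (irrOne_mem_principalBlock hM), mem_bset.2 h1, mem_bset.2 h2]
  have hc : ({irrOne G, χ₁, χ₂} : Finset _).card = 3 :=
    Finset.card_eq_three.2 ⟨_, _, _, n1.symm, n2.symm, n12, rfl⟩
  obtain ⟨h4, h5⟩ := sign_of_sum_mul_self (s := bset (principalBlock M G)) (f := e) (q := 4)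
    (fun χ hχ h => D.apply_J_ne_zero hM (mem_bset.1 hχ) (by rw [he, h, Int.cast_zero]))
    (by
      simp only [he, map_intCast] at h3
      refine Int.cast_injective (α := ℂ) ?_
      push_cast
      rw [h3]; norm_num)
    (by have := Finset.card_le_card hs; omega)
  obtain ⟨χ₃, h6⟩ := Finset.card_eq_one.1
    (show (bset (principalBlock M G) \ {irrOne G, χ₁, χ₂}).card = 1 by
      rw [Finset.card_sdiff_of_subset hs, h4, hc])
  have h7 := Finset.mem_sdiff.1 (h6 ▸ Finset.mem_singleton_self χ₃ :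
    χ₃ ∈ bset (principalBlock M G) \ {irrOne G, χ₁, χ₂})
  simp only [Finset.mem_insert, Finset.mem_singleton, not_or, mem_bset] at h7
  refine ⟨χ₃, Set.ext fun χ => ⟨fun h => ?_, ?_⟩, h7.2.1, Ne.symm h7.2.2.1, Ne.symm h7.2.2.2,
    fun χ hχ => ⟨e χ, h5 χ (mem_bset.2 hχ), he χ⟩⟩
  · by_contra h8
    simp only [Set.mem_ofPred_eq, not_or] at h8
    refine h8.2.2.2 (Finset.mem_singleton.1 (h6 ▸ Finset.mem_sdiff.2 ⟨mem_bset.2 h, ?_⟩))
    simp only [Finset.mem_insert, Finset.mem_singleton, not_or]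
    exact ⟨fun h => h8.1 (h ▸ rfl), h8.2.1, h8.2.2.1⟩
  · rintro (h | rfl | rfl | rfl)
    exacts [(Subtype.ext h : χ = irrOne G) ▸ irrOne_mem_principalBlock hM, h1, h2, h7.1]

/-- Brauer: a non-abelian simple group of order `4 g₀`, `g₀` odd with at most two prime divisors,
has order `60`. -/
theorem card_eq_sixty_of_simple [IsSimpleGroup G] (hna : ∃ x y : G, x * y ≠ y * x) {g₀ : ℕ}
    (hg₀ : Odd g₀) (hG : Nat.card G = 4 * g₀) {p q : ℕ} (hp : p.Prime) (hq : q.Prime)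
    (hpq : p ≠ q) (hr : ∀ r : ℕ, r.Prime → r ∣ Nat.card G → r = 2 ∨ r = p ∨ r = q) :
    Nat.card G = 60 := by
  obtain ⟨M, hM⟩ := exists_isPModular Nat.prime_two
  obtain ⟨P⟩ : Nonempty (Sylow 2 G) := inferInstance
  have h2G : 2 ∣ Nat.card G := by omega
  obtain ⟨⟨J, hJ⟩, hJ2⟩ := exists_prime_orderOf_dvd_card' (G := P) 2 (P.dvd_card_of_dvd_card h2G)
  replace hJ2 : orderOf J = 2 := (orderOf_coe (⟨J, hJ⟩ : P)).trans hJ2
  obtain ⟨τ, D, hτ, hστ⟩ := exists_dihSyl_zero hg₀ hG (by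
    rintro ⟨N, hN, h⟩
    refine not_hasNormalPComplement_of_simple hna h2G (hasNormalPComplement_of_normal N
      (h ▸ hg₀.not_two_dvd_nat) (k := 2) ?_)
    have := N.card_mul_index
    rw [h, hG, mul_comm] at this
    exact Nat.eq_of_mul_eq_mul_right hg₀.pos this) P hJ hJ2
  obtain ⟨χ₁, h1, n1, d1⟩ := LG.exists_principal_not_dvd hM hJ2.symm.dvd hq
  obtain ⟨χ₂, h2, n2, d2⟩ := LG.exists_principal_not_dvd hM hJ2.symm.dvd hp
  have key : ∀ χ : IrrCharacter G, χ ≠ irrOne G → ∀ ε : ℤ, (ε = 1 ∨ ε = -1) → χ.1 J = ε →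
      ((ε * charDegree χ.1) % 4 = 1 ∧ ε * charDegree χ.1 ≠ 1) ∧
        ε * charDegree χ.1 ∣ (Nat.card G : ℤ) ∧ ((p : ℤ) ∣ ε * charDegree χ.1 ↔
          p ∣ charDegree χ.1) ∧ ((q : ℤ) ∣ ε * charDegree χ.1 ↔ q ∣ charDegree χ.1) ∧
          (p ∣ charDegree χ.1 ∨ q ∣ charDegree χ.1) := fun χ hχ ε hε h => by
    obtain ⟨k, -, -, h3⟩ := exists_apply_invol_of_simple hna hχ hJ2
    have h4 : ε = charDegree χ.1 - 4 * k := by exact_mod_cast h.symm.trans h3
    have h5 := irr_degree_ne_one_of_simple hna hχ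
    have h6 : (charDegree χ.1 : ℤ) ∣ Nat.card G := Int.natCast_dvd_natCast.2 (irr_degree_dvd_card χ)
    obtain ⟨r, h7, h8⟩ := Nat.exists_prime_and_dvd h5
    refine ⟨by rcases hε with rfl | rfl <;> omega, ?_, ?_, ?_, ?_⟩
    · rcases hε with rfl | rfl <;> simpa using h6
    · rcases hε with rfl | rfl <;> simp [Int.natCast_dvd_natCast]
    · rcases hε with rfl | rfl <;> simp [Int.natCast_dvd_natCast]
    · rcases hr r h7 (h8.trans (irr_degree_dvd_card χ)) with rfl | rfl | rfl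
      exacts [by omega, Or.inl h8, Or.inr h8]
  obtain ⟨χ₃, hB, n3, n13, n23, hv⟩ := D.exists_klein hM h1 h2 n1 n2 (by
    rintro rfl
    obtain ⟨r, h7, h8⟩ := Nat.exists_prime_and_dvd (irr_degree_ne_one_of_simple hna n1)
    rcases hr r h7 (h8.trans (irr_degree_dvd_card χ₁)) with rfl | rfl | rfl
    exacts [(blockHeight_principal_eq_zero_iff hM χ₁ h1).1 (height_eq_zero_of_defect_le_two hM
      isPBlock_principalBlock (by
        rw [blockDefect_principal hM, ← Nat.pow_le_pow_iff_right Nat.one_lt_two,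
          ← P.card_eq_multiplicity, D.card_P]) h1) h8, d2 h8, d1 h8])
  have h3 : χ₃ ∈ principalBlock M G := by simp [hB]
  obtain ⟨ε₁, s1, v1⟩ := hv χ₁ h1
  obtain ⟨ε₂, s2, v2⟩ := hv χ₂ h2
  obtain ⟨ε₃, s3, v3⟩ := hv χ₃ h3
  obtain ⟨a1, b1, c1, e1, f1⟩ := key χ₁ n1 ε₁ s1 v1
  obtain ⟨a2, b2, c2, e2, f2⟩ := key χ₂ n2 ε₂ s2 v2
  obtain ⟨a3, b3, -⟩ := key χ₃ n3 ε₃ s3 v3
  have hd : χ₁.1 ≠ (fun _ => 1) ∧ χ₂.1 ≠ (fun _ => 1) ∧ χ₃.1 ≠ (fun _ => 1) ∧ χ₁ ≠ χ₂ ∧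
      χ₁ ≠ χ₃ ∧ χ₂ ≠ χ₃ := ⟨fun h => n1 (Subtype.ext h), fun h => n2 (Subtype.ext h),
    fun h => n3 (Subtype.ext h), by rintro rfl; exact f1.elim d2 d1, n13, n23⟩
  have hs := D.klein_degree hM hB hd ⟨v1, v2, v3⟩
  have hF : (Nat.card G : ℤ) * ((ε₁ * charDegree χ₁.1 + 1) * (ε₂ * charDegree χ₂.1 + 1) *
      (ε₃ * charDegree χ₃.1 + 1)) * (Nat.card (centralizer ((P : Subgroup G) : Set G)) : ℤ) ^ 2 =
      8 * ((ε₁ * charDegree χ₁.1) * (ε₂ * charDegree χ₂.1) * (ε₃ * charDegree χ₃.1)) *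
        (Nat.card (centralizer ({J} : Set G)) : ℤ) ^ 3 := by
    have h4 := D.klein_order hM hB hd ⟨v1, v2, v3⟩ hτ hστ
    have h5 : 1 + (ε₁ : ℚ) * charDegree χ₁.1 + ε₂ * charDegree χ₂.1 + ε₃ * charDegree χ₃.1 = 0 := by
      exact_mod_cast hs
    have hx : (charDegree χ₁.1 : ℚ) ≠ 0 := Nat.cast_ne_zero.2 (irr_degree_pos _).ne'
    have hy : (charDegree χ₂.1 : ℚ) ≠ 0 := Nat.cast_ne_zero.2 (irr_degree_pos _).ne'
    have hz : (charDegree χ₃.1 : ℚ) ≠ 0 := Nat.cast_ne_zero.2 (irr_degree_pos _).ne'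
    have hc' : (Nat.card (centralizer ((P : Subgroup G) : Set G)) : ℚ) ≠ 0 :=
      Nat.cast_ne_zero.2 Nat.card_pos.ne'
    field_simp at h4
    refine Int.cast_injective (α := ℚ) ?_
    push_cast
    generalize (Nat.card (centralizer ((P : Subgroup G) : Set G)) : ℚ) = c at h4 ⊢
    rcases s1 with rfl | rfl <;> rcases s2 with rfl | rfl <;> rcases s3 with rfl | rfl <;>
      push_cast at h4 h5 ⊢ <;>
      first
      | linear_combination h4 + Nat.card G * c ^ 2 * h5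
      | linear_combination -h4 + Nat.card G * c ^ 2 * h5
  obtain ⟨hw, huv⟩ := klein_arith hp hq hpq a1 a2 a3 hs (c1.2 (f1.resolve_right d1)) (mt e1.1 d1)
    (e2.2 (f2.resolve_left d2)) (mt c2.1 d2) fun r h4 h5 => hr r h4 (by
      have h6 : (8 : ℤ) ∣ (Nat.card G : ℤ) ^ 3 :=
        pow_dvd_pow_of_dvd (Int.natCast_dvd_natCast.2 h2G) 3
      have h7 := mul_dvd_mul (mul_dvd_mul h6 (mul_dvd_mul (mul_dvd_mul b1 b2) b3))
        (pow_dvd_pow_of_dvd (Int.natCast_dvd_natCast.2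
          (card_subgroup_dvd_card (centralizer ({J} : Set G)))) 3)
      rw [← hF] at h7
      have h8 := h5.trans (mul_dvd_mul b3 (((dvd_mul_left _ _).mul_right _).trans h7))
      rw [show ∀ x : ℤ, x * (x ^ 3 * (x * x * x) * x ^ 3) = x ^ 10 from fun x => by ring] at h8
      exact h4.dvd_of_dvd_pow (by exact_mod_cast h8))
  obtain ⟨rfl, hd3⟩ : ε₃ = -1 ∧ charDegree χ₃.1 = 3 := by
    rcases s3 with rfl | rfl <;> omega
  have hC : centralizer ({J} : Set G) = P := by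
    obtain ⟨k, hk⟩ := hasNormalPComplement_iff_index_pPrimeCore.1 D.nilp
    rw [show pPrimeCore 2 (centralizer ({J} : Set G)) = ⊥ from ?_, index_bot] at hk
    · exact D.syl.eq_of_le (IsPGroup.of_card hk) le_top D.le_C
    · refine (eq_bot_iff_forall _).2 fun y hy => Subtype.ext ?_
      have h4 : ∀ k : ℕ, ¬ 2 ∣ orderOf (y ^ k) := fun k h =>
        not_dvd_card_pPrimeCore 2 _ (h.trans (orderOf_dvd_natCard _ (pow_mem hy k)))
      have := mem_ker_of_degree_three (irr_isCharacter χ₃) hd3 hJ2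
        (mem_centralizer_singleton_iff.1 y.2).symm (by
          rw [orderOf_coe, ← Nat.not_even_iff_odd, even_iff_two_dvd]; simpa using h4 1)
        (detChar_eq_one_of_simple hna _ _) fun k => by
          have := principal_apply_mul_of_nilpotent hM rfl (D.isPElt hJ) D.nilp h3 (h4 k)
          rw [v3] at this
          simpa using this
      rwa [irr_ker_eq_bot_of_simple n3, mem_bot] at this
  have hP : Nat.card P = 2 ^ 2 := D.card_P
  have hC' : centralizer ((P : Subgroup G) : Set G) = P := by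
    have := IsPGroup.isMulCommutative_of_card_eq_prime_sq hP
    exact le_antisymm ((centralizer_le (Set.singleton_subset_iff.2 hJ)).trans hC.le) (le_centralizer _)
  rw [hC, hC', hP] at hF
  generalize ε₁ * charDegree χ₁.1 = u at *
  generalize ε₂ * charDegree χ₂.1 = v at *
  rw [hw] at hF hs
  rcases huv with rfl | rfl
  · obtain rfl : v = 5 := by omega
    norm_num at hF
    omega
  · obtain rfl : u = 5 := by omega
    norm_num at hF
    omega

end BT
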